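import Mathlib

set_option autoImplicit false

/-! PIECE S3T of CALL S0508 (helper81): the order of a sharply 3-transitive group. -/

namespace Cfsg.Agent.Helper28

theorem bswd_sharp3_card {G Ω : Type*} [Group G] [Finite G] [MulAction G Ω] [Finite Ω]
    (hΩ : 3 ≤ Nat.card Ω)
    (h3 : MulAction.IsMultiplyPretransitive G Ω 3)
    (hs : ∀ t : Fin 3 ↪ Ω, MulAction.stabilizer G t = ⊥) :
    Nat.card G = Nat.card Ω * (Nat.card Ω - 1) * (Nat.card Ω - 2) := by
  classical
  have hfin : Fintype Ω := Fintype.ofFinite Ω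
  have hpre : MulAction.IsPretransitive G (Fin 3 ↪ Ω) := h3
  have hne : Nonempty (Fin 3 ↪ Ω) := by
    apply Function.Embedding.nonempty_of_card_le
    rw [Fintype.card_fin, ← Nat.card_eq_fintype_card]
    exact hΩ
  obtain ⟨t⟩ := hne
  have h1 := MulAction.index_stabilizer_of_transitive G t
  rw [hs t, Subgroup.index_bot, Nat.card_eq_fintype_card (α := Fin 3 ↪ Ω),
    Fintype.card_embedding_eq, Fintype.card_fin, ← Nat.card_eq_fintype_card] at h1
  rw [h1, Nat.descFactorial_succ, Nat.descFactorial_succ, Nat.descFactorial_succ,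
    Nat.descFactorial_zero, Nat.sub_zero]
  ring
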