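import Mathlib

set_option autoImplicit false

/-! PIECE ZAS1 of CALL S0508 (helper81): `Q` is abelian, `2 |N(Q)| = q (q - 1)` and `Q` meets the
conjugates `g N(Q) g⁻¹`, `g ∉ N(Q)`, trivially. -/

namespace Cfsg.Agent.Helper28

open scoped Pointwise

theorem bswd_zas1 {G : Type*} [Group G] [Finite G] (Q D : Subgroup G)
    (hQ : ∀ x ∈ Q, x ≠ 1 → Subgroup.centralizer ({x} : Set G) = Q)
    (hD : 2 * Nat.card ↥D + 1 = Nat.card ↥Q) (hQD : Q ⊓ D = ⊥)
    (hN : Subgroup.normalizer (Q : Set G) = Q ⊔ D) :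
    IsMulCommutative ↥Q ∧
    2 * Nat.card ↥(Subgroup.normalizer (Q : Set G)) = Nat.card ↥Q * (Nat.card ↥Q - 1) ∧
    ∀ g : G, g ∉ Subgroup.normalizer (Q : Set G) → ∀ y ∈ Q,
      g⁻¹ * y * g ∈ Subgroup.normalizer (Q : Set G) → y = 1 := by
  classical
  have hcomm : ∀ x ∈ Q, ∀ y ∈ Q, x * y = y * x := by
    intro x hx y hy
    by_cases hx1 : x = 1
    · rw [hx1, one_mul, mul_one]
    · have h1 : y ∈ Subgroup.centralizer ({x} : Set G) := by rw [hQ x hx hx1]; exact hy
      exact Subgroup.mem_centralizer_iff.mp h1 x (Set.mem_singleton x)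
  have hDN : D ≤ Subgroup.normalizer (Q : Set G) := by rw [hN]; exact le_sup_right
  have hdisj : ∀ x, x ∈ Q → x ∈ D → x = 1 := by
    intro x hx hx'
    have h1 : x ∈ Q ⊓ D := ⟨hx, hx'⟩
    rw [hQD] at h1
    exact Subgroup.mem_bot.mp h1
  have hmul : ((Q ⊔ D : Subgroup G) : Set G) = (Q : Set G) * (D : Set G) :=
    Subgroup.coe_mul_of_right_le_normalizer_left Q D hDN
  have hdec : ∀ x ∈ Subgroup.normalizer (Q : Set G), ∃ a ∈ Q, ∃ d ∈ D, x = a * d := by
    intro x hx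
    rw [hN] at hx
    have hx' : x ∈ ((Q ⊔ D : Subgroup G) : Set G) := hx
    rw [hmul] at hx'
    obtain ⟨a, ha, d, hd, rfl⟩ := hx'
    exact ⟨a, ha, d, hd, rfl⟩
  have hmemN : ∀ a ∈ Q, ∀ d ∈ D, a * d ∈ Subgroup.normalizer (Q : Set G) := by
    intro a ha d hd
    rw [hN]
    exact Subgroup.mul_mem _ (Subgroup.mem_sup_left ha) (Subgroup.mem_sup_right hd)
  -- the order of the normaliser
  have hcard : Nat.card ↥(Subgroup.normalizer (Q : Set G)) = Nat.card ↥Q * Nat.card ↥D := by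
    rw [← Nat.card_prod]
    symm
    apply Nat.card_eq_of_bijective (fun p : ↥Q × ↥D =>
      (⟨(p.1 : G) * (p.2 : G), hmemN _ p.1.2 _ p.2.2⟩ : ↥(Subgroup.normalizer (Q : Set G))))
    constructor
    · rintro ⟨⟨a, ha⟩, ⟨d, hd⟩⟩ ⟨⟨a', ha'⟩, ⟨d', hd'⟩⟩ h
      have h1 : a * d = a' * d' := congrArg Subtype.val h
      have h2 : a'⁻¹ * a = d' * d⁻¹ := by
        rw [eq_mul_inv_iff_mul_eq, mul_assoc, h1, inv_mul_cancel_left]
      have h3 : a'⁻¹ * a = 1 :=
        hdisj _ (Q.mul_mem (Q.inv_mem ha') ha) (by rw [h2]; exact D.mul_mem hd' (D.inv_mem hd))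
      have h4 : a = a' := by
        rw [inv_mul_eq_one] at h3
        exact h3.symm
      subst h4
      have h5 : d = d' := mul_left_cancel h1
      subst h5
      rfl
    · rintro ⟨x, hx⟩
      obtain ⟨a, ha, d, hd, rfl⟩ := hdec x hx
      exact ⟨(⟨a, ha⟩, ⟨d, hd⟩), rfl⟩
  refine ⟨⟨⟨fun a b => Subtype.ext (hcomm a a.2 b b.2)⟩⟩, ?_, ?_⟩
  · rw [hcard, ← hD]
    have h1 : 2 * Nat.card ↥D + 1 - 1 = 2 * Nat.card ↥D := by omega
    rw [h1]
    ring
  · intro g hg y hy hy'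
    by_contra hy1
    obtain ⟨a, ha, d, hd, hyad⟩ := hdec _ hy'
    have hpow : ∀ k : ℕ, ∃ b ∈ Q, (a * d) ^ k = b * d ^ k := by
      intro k
      induction k with
      | zero => exact ⟨1, Q.one_mem, by simp⟩
      | succ k ih =>
        obtain ⟨b, hb, hbk⟩ := ih
        refine ⟨b * (d ^ k * a * (d ^ k)⁻¹), Q.mul_mem hb ?_, ?_⟩
        · exact (Subgroup.mem_normalizer_iff.mp (hDN (D.pow_mem hd k)) a).mp ha
        · rw [pow_succ, hbk, pow_succ]
          group
    obtain ⟨b, hb, hbq⟩ := hpow (Nat.card ↥Q)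
    have hyq : y ^ Nat.card ↥Q = 1 := by
      have h1 : orderOf (⟨y, hy⟩ : ↥Q) ∣ Nat.card ↥Q := orderOf_dvd_natCard _
      rw [Subgroup.orderOf_mk] at h1
      exact orderOf_dvd_iff_pow_eq_one.mp h1
    have hyq' : (g⁻¹ * y * g) ^ Nat.card ↥Q = 1 := by
      have h1 : g⁻¹ * y * g = g⁻¹ * y * g⁻¹⁻¹ := by rw [inv_inv]
      rw [h1, conj_pow, hyq, mul_one, mul_inv_cancel]
    rw [hyad, hbq] at hyq'
    have hdq : d ^ Nat.card ↥Q = 1 := by
      apply hdisj
      · have h1 : d ^ Nat.card ↥Q = b⁻¹ := eq_inv_of_mul_eq_one_right hyq'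
        rw [h1]
        exact Q.inv_mem hb
      · exact D.pow_mem hd _
    have hdD : d ^ Nat.card ↥D = 1 := by
      have h1 : orderOf (⟨d, hd⟩ : ↥D) ∣ Nat.card ↥D := orderOf_dvd_natCard _
      rw [Subgroup.orderOf_mk] at h1
      exact orderOf_dvd_iff_pow_eq_one.mp h1
    have hd1 : d = 1 := by
      rw [← hD, pow_succ, mul_comm 2, pow_mul, hdD, one_pow, one_mul] at hdq
      exact hdq
    rw [hd1, mul_one] at hyad
    -- `g⁻¹ y g = a ∈ Q`
    have hy'Q : g⁻¹ * y * g ∈ Q := by rw [hyad]; exact ha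
    have hy'1 : g⁻¹ * y * g ≠ 1 := by
      intro h
      apply hy1
      have h2 : y = g * (g⁻¹ * y * g) * g⁻¹ := by group
      rw [h2, h, mul_one, mul_inv_cancel]
    have hC' := hQ _ hy'Q hy'1
    have hC := hQ y hy hy1
    apply hg
    rw [Subgroup.mem_normalizer_iff]
    intro n
    constructor
    · intro hn
      have h1 : n ∈ Subgroup.centralizer ({g⁻¹ * y * g} : Set G) := by rw [hC']; exact hn
      have h2 := Subgroup.mem_centralizer_iff.mp h1 _ (Set.mem_singleton _)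
      have h3 : g * n * g⁻¹ ∈ Subgroup.centralizer ({y} : Set G) := by
        rw [Subgroup.mem_centralizer_iff]
        intro z hz
        rw [Set.mem_singleton_iff] at hz
        subst hz
        calc z * (g * n * g⁻¹) = g * ((g⁻¹ * z * g) * n) * g⁻¹ := by group
          _ = g * (n * (g⁻¹ * z * g)) * g⁻¹ := by rw [h2]
          _ = g * n * g⁻¹ * z := by group
      rw [hC] at h3
      exact h3
    · intro hn
      have h1 : g * n * g⁻¹ ∈ Subgroup.centralizer ({y} : Set G) := by rw [hC]; exact hn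
      have h2 := Subgroup.mem_centralizer_iff.mp h1 _ (Set.mem_singleton _)
      have h3 : n ∈ Subgroup.centralizer ({g⁻¹ * y * g} : Set G) := by
        rw [Subgroup.mem_centralizer_iff]
        intro z hz
        rw [Set.mem_singleton_iff] at hz
        subst hz
        calc g⁻¹ * y * g * n = g⁻¹ * (y * (g * n * g⁻¹)) * g := by group
          _ = g⁻¹ * (g * n * g⁻¹ * y) * g := by rw [h2]
          _ = n * (g⁻¹ * y * g) := by group
      rw [hC'] at h3
      exact h3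

end Cfsg.Agent.Helper28
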