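import Mathlib

set_option autoImplicit false

/-! PIECE ZAS2 of CALL S0508 (helper81): the coset action on `G ⧸ N(Q)` has degree `q + 1`,
`Q` is regular on the points other than the base point, and the action is 2-transitive. -/

namespace Cfsg.Agent.Helper28

theorem bswd_zas2 {G : Type*} [Group G] [Finite G] (Q : Subgroup G)
    (hcardN : 2 * Nat.card ↥(Subgroup.normalizer (Q : Set G)) = Nat.card ↥Q * (Nat.card ↥Q - 1))
    (hord : 2 * Nat.card G = Nat.card ↥Q * (Nat.card ↥Q + 1) * (Nat.card ↥Q - 1))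
    (hq : 2 ≤ Nat.card ↥Q)
    (hsemi : ∀ g : G, g ∉ Subgroup.normalizer (Q : Set G) → ∀ y ∈ Q,
      g⁻¹ * y * g ∈ Subgroup.normalizer (Q : Set G) → y = 1) :
    Nat.card (G ⧸ Subgroup.normalizer (Q : Set G)) = Nat.card ↥Q + 1 ∧
    (∀ y z : G ⧸ Subgroup.normalizer (Q : Set G), y ≠ QuotientGroup.mk 1 → z ≠ QuotientGroup.mk 1 →
      ∃! u : Q, (u : G) • y = z) ∧
    MulAction.IsMultiplyPretransitive G (G ⧸ Subgroup.normalizer (Q : Set G)) 2 := by
  classical
  obtain ⟨N, hN⟩ : ∃ N : Subgroup G, N = Subgroup.normalizer (Q : Set G) := ⟨_, rfl⟩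
  rw [← hN] at hcardN hsemi ⊢
  have hQN : Q ≤ N := by rw [hN]; exact Subgroup.le_normalizer
  -- the degree
  have hidx := Subgroup.card_mul_index N
  rw [Subgroup.index_eq_card] at hidx
  have hΩ : Nat.card (G ⧸ N) = Nat.card ↥Q + 1 := by
    have hNpos : 0 < Nat.card ↥N := Nat.card_pos
    have h1 : 2 * Nat.card ↥N * Nat.card (G ⧸ N) = 2 * Nat.card ↥N * (Nat.card ↥Q + 1) := by
      calc 2 * Nat.card ↥N * Nat.card (G ⧸ N) = 2 * (Nat.card ↥N * Nat.card (G ⧸ N)) := by ring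
        _ = 2 * Nat.card G := by rw [hidx]
        _ = Nat.card ↥Q * (Nat.card ↥Q + 1) * (Nat.card ↥Q - 1) := hord
        _ = (Nat.card ↥Q * (Nat.card ↥Q - 1)) * (Nat.card ↥Q + 1) := by ring
        _ = 2 * Nat.card ↥N * (Nat.card ↥Q + 1) := by rw [← hcardN]
    exact Nat.eq_of_mul_eq_mul_left (by positivity) h1
  -- `Q` fixes the base point
  have hfix : ∀ u ∈ Q, u • (QuotientGroup.mk 1 : G ⧸ N) = QuotientGroup.mk 1 := by
    intro u hu
    rw [MulAction.Quotient.smul_mk, QuotientGroup.eq, smul_eq_mul, mul_one, mul_one]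
    exact N.inv_mem (hQN hu)
  -- `Q` acts freely on the other points
  have hinj : ∀ y : G ⧸ N, y ≠ QuotientGroup.mk 1 → ∀ u ∈ Q, ∀ u' ∈ Q,
      u • y = u' • y → u = u' := by
    intro y hy u hu u' hu' h
    obtain ⟨g, rfl⟩ := QuotientGroup.mk_surjective y
    have hg : g ∉ N := by
      intro hg
      apply hy
      rw [QuotientGroup.eq, mul_one]
      exact N.inv_mem hg
    rw [MulAction.Quotient.smul_mk, MulAction.Quotient.smul_mk, QuotientGroup.eq, smul_eq_mul,
      smul_eq_mul] at h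
    have h2 : g⁻¹ * (u⁻¹ * u') * g ∈ N := by
      have h3 : g⁻¹ * (u⁻¹ * u') * g = (u * g)⁻¹ * (u' * g) := by group
      rw [h3]
      exact h
    have h4 := hsemi g hg (u⁻¹ * u') (Q.mul_mem (Q.inv_mem hu) hu') h2
    rw [inv_mul_eq_one] at h4
    exact h4
  have hreg : ∀ y z : G ⧸ N, y ≠ QuotientGroup.mk 1 → z ≠ QuotientGroup.mk 1 →
      ∃! u : Q, (u : G) • y = z := by
    intro y z hy hz
    have hφ : Function.Injective (fun u : Q => (u : G) • y) := by
      intro u u' h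
      exact Subtype.ext (hinj y hy u u.2 u' u'.2 h)
    have hsub : Set.range (fun u : Q => (u : G) • y) ⊆ ({QuotientGroup.mk 1} : Set (G ⧸ N))ᶜ := by
      rintro _ ⟨u, rfl⟩
      intro h
      rw [Set.mem_singleton_iff] at h
      apply hy
      have h2 : (u : G) • y = (u : G) • (QuotientGroup.mk 1 : G ⧸ N) := by
        rw [hfix u u.2]
        exact h
      exact MulAction.injective (u : G) h2
    have hcard1 : (Set.range (fun u : Q => (u : G) • y)).ncard = Nat.card ↥Q :=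
      Set.ncard_range_of_injective hφ
    have hcard2 : (({QuotientGroup.mk 1} : Set (G ⧸ N))ᶜ).ncard = Nat.card ↥Q := by
      rw [Set.ncard_compl, Set.ncard_singleton, hΩ, Nat.add_sub_cancel]
    have heq := Set.eq_of_subset_of_ncard_le hsub (by rw [hcard1, hcard2])
    have hzmem : z ∈ Set.range (fun u : Q => (u : G) • y) := by
      rw [heq]
      exact hz
    obtain ⟨u, hu⟩ := hzmem
    refine ⟨u, hu, fun u' hu' => ?_⟩
    exact hφ (hu'.trans hu.symm)
  refine ⟨hΩ, hreg, ?_⟩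
  rw [MulAction.is_two_pretransitive_iff]
  intro a b c d hab hcd
  obtain ⟨g1, hg1⟩ := MulAction.exists_smul_eq G a (QuotientGroup.mk 1 : G ⧸ N)
  obtain ⟨g2, hg2⟩ := MulAction.exists_smul_eq G c (QuotientGroup.mk 1 : G ⧸ N)
  have hb : g1 • b ≠ QuotientGroup.mk 1 := by
    intro h
    apply hab
    exact (MulAction.injective g1 (hg1.trans h.symm))
  have hd : g2 • d ≠ QuotientGroup.mk 1 := by
    intro h
    apply hcd
    exact (MulAction.injective g2 (hg2.trans h.symm))
  obtain ⟨u, hu, -⟩ := hreg (g1 • b) (g2 • d) hb hd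
  refine ⟨g2⁻¹ * (u : G) * g1, ?_, ?_⟩
  · rw [mul_smul, mul_smul, hg1, hfix u u.2, ← hg2, inv_smul_smul]
  · rw [mul_smul, mul_smul, hu, inv_smul_smul]

end Cfsg.Agent.Helper28
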