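import Mathlib
import Cfsg.Agent.Helper98.C2Defs
set_option autoImplicit false

/-!
# Generalised permutation matrices and conjugation of elementary transvections (CALL S5634)
-/

namespace Cfsg.Agent.Helper28.C2Mono
open Matrix Cfsg.Agent.Helper98.C2
open scoped MatrixGroups

variable {K : Type*} [Field K] {n : ℕ}

/-- generalised permutation matrix: column `q` is `d q • e_(π q)` -/
def gpm (π : Equiv.Perm (Fin n)) (d : Fin n → K) : Matrix (Fin n) (Fin n) K :=
  Matrix.of fun p q => if p = π q then d q else 0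

theorem gpm_apply (π : Equiv.Perm (Fin n)) (d : Fin n → K) (p q : Fin n) :
    gpm π d p q = if p = π q then d q else 0 := rfl

theorem gpm_det (π : Equiv.Perm (Fin n)) (d : Fin n → K) :
    (gpm π d).det = (((Equiv.Perm.sign π : ℤˣ) : ℤ) : K) * ∏ x, d x := by
  have h : gpm π d = (Matrix.diagonal d).submatrix (π⁻¹ : Equiv.Perm (Fin n)) id := by
    ext p q
    rw [gpm_apply, Matrix.submatrix_apply, Matrix.diagonal_apply, id]
    by_cases h1 : p = π q
    · subst h1; simp
    · rw [if_neg h1, if_neg]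
      intro h2
      apply h1
      rw [← h2]; simp
  rw [h, Matrix.det_permute, Matrix.det_diagonal, Equiv.Perm.sign_inv]

theorem gpm_conj (π : Equiv.Perm (Fin n)) (d : Fin n → K) (i0 j0 : Fin n) (c0 c : K)
    (h : d i0 * c0 = c * d j0) :
    gpm π d * Matrix.transvection i0 j0 c0 = Matrix.transvection (π i0) (π j0) c * gpm π d := by
  unfold Matrix.transvection
  rw [Matrix.mul_add, Matrix.add_mul, Matrix.mul_one, Matrix.one_mul]
  congr 1
  ext p q
  by_cases hq : q = j0
  · subst hq
    rw [Matrix.mul_single_apply_same]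
    by_cases hp : p = π i0
    · subst hp
      rw [Matrix.single_mul_apply_same, gpm_apply, gpm_apply, if_pos rfl, if_pos rfl, h]
    · rw [Matrix.single_mul_apply_of_ne _ _ _ _ _ hp, gpm_apply, if_neg hp, zero_mul]
  · rw [Matrix.mul_single_apply_of_ne _ _ _ _ _ hq]
    by_cases hp : p = π i0
    · subst hp
      rw [Matrix.single_mul_apply_same, gpm_apply, if_neg, mul_zero]
      intro h2
      exact hq (π.injective h2).symm
    · rw [Matrix.single_mul_apply_of_ne _ _ _ _ _ hp]

theorem gpm_isMono (π : Equiv.Perm (Fin n)) (d : Fin n → K) : IsMono (gpm π d) :=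
  ⟨π, fun i j hij => by rw [gpm_apply, if_neg hij]⟩

theorem exists_perm_two {α : Type*} [DecidableEq α] (a b a' b' : α) (hab : a ≠ b) (hab' : a' ≠ b') :
    ∃ π : Equiv.Perm α, π a = a' ∧ π b = b' := by
  refine ⟨Equiv.swap b' (Equiv.swap a a' b) * Equiv.swap a a', ?_, ?_⟩
  · rw [Equiv.Perm.mul_apply, Equiv.swap_apply_left, Equiv.swap_apply_of_ne_of_ne hab']
    intro h
    have : Equiv.swap a a' a = Equiv.swap a a' b := by rw [Equiv.swap_apply_left]; exact h
    exact hab ((Equiv.swap a a').injective this)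
  · rw [Equiv.Perm.mul_apply, Equiv.swap_apply_right]

theorem sign_mul_self (π : Equiv.Perm (Fin n)) :
    ((((Equiv.Perm.sign π : ℤˣ) : ℤ) : K)) * (((Equiv.Perm.sign π : ℤˣ) : ℤ) : K) = 1 := by
  rcases Int.units_eq_one_or (Equiv.Perm.sign π) with h | h <;> rw [h] <;> simp

/-- conjugating a transvection in `M` by a generalised permutation matrix of determinant one lying in `M` -/
theorem conj_tv (M : Subgroup (GL (Fin n) K)) (π : Equiv.Perm (Fin n)) (d : Fin n → K)
    (hdet : (gpm π d).det = 1) (hw : ∀ w : GL (Fin n) K, w.1 = gpm π d → w ∈ M)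
    (i0 j0 : Fin n) (c0 c : K) (h : d i0 * c0 = c * d j0)
    (g : GL (Fin n) K) (hg : g ∈ M) (hgeq : g.1 = Matrix.transvection i0 j0 c0) :
    ∃ k ∈ M, k.1 = Matrix.transvection (π i0) (π j0) c := by
  obtain ⟨w, hwd⟩ : ∃ w : GL (Fin n) K, w.1 = gpm π d :=
    ⟨Matrix.GeneralLinearGroup.mkOfDetNeZero (gpm π d) (by rw [hdet]; exact one_ne_zero), rfl⟩
  have hwM : w ∈ M := hw w hwd
  refine ⟨w * g * w⁻¹, M.mul_mem (M.mul_mem hwM hg) (M.inv_mem hwM), ?_⟩
  have h1 : (w * g).1 = Matrix.transvection (π i0) (π j0) c * w.1 := by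
    rw [Units.val_mul, hgeq, hwd]; exact gpm_conj π d i0 j0 c0 c h
  rw [Units.val_mul, h1, Matrix.mul_assoc, ← Units.val_mul, mul_inv_cancel, Units.val_one, Matrix.mul_one]

end Cfsg.Agent.Helper28.C2Mono
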