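import Mathlib
import Cfsg.Agent.Helper98.C2Defs
set_option autoImplicit false

/-! # CALL S5634, piece P: lifting a permutation of the blocks to a permutation of the coordinates -/

namespace Cfsg.Agent.Helper28.C2P
open Matrix Cfsg.Agent.Helper98.C2
open scoped MatrixGroups

variable {K : Type*} [Field K]

/-- PIECE P (pure combinatorics) -/
theorem blk_perm_lift {n t : ℕ} (blk : Fin n → Fin t) (m : ℕ)
    (hfib : ∀ b : Fin t, (Finset.univ.filter (fun i => blk i = b)).card = m)
    (σ : Equiv.Perm (Fin t)) : ∃ π : Equiv.Perm (Fin n), ∀ i, blk (π i) = σ (blk i) := by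
  have hcard : ∀ b : Fin t, Fintype.card {i : Fin n // blk i = b} = m := by
    intro b
    rw [Fintype.card_subtype]
    exact hfib b
  let e : ∀ b : Fin t, {i : Fin n // blk i = b} ≃ Fin m := fun b => Fintype.equivFinOfCardEq (hcard b)
  let E : Fin n ≃ Fin t × Fin m :=
    (Equiv.sigmaFiberEquiv blk).symm.trans ((Equiv.sigmaCongrRight e).trans (Equiv.sigmaEquivProd _ _))
  have hE : ∀ i, (E i).1 = blk i := fun i => rfl
  refine ⟨E.trans ((Equiv.prodCongr σ (Equiv.refl _)).trans E.symm), fun i => ?_⟩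
  rw [← hE, ← hE]
  simp
end Cfsg.Agent.Helper28.C2P
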