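import Mathlib
import Cfsg.Agent.Helper98.C2Defs
import Cfsg.Agent.Helper28.C2Mono
import Cfsg.Agent.Helper28.C2P
set_option autoImplicit false

/-! # CALL S5634, piece X5b: transvections between one pair of blocks give all cross transvections -/

namespace Cfsg.Agent.Helper28.C2X5b
open Matrix Cfsg.Agent.Helper98.C2
open scoped MatrixGroups
open Cfsg.Agent.Helper28.C2Mono

variable {K : Type*} [Field K]

/-- PIECE X5b -/
theorem blk_all_cross {n t : ℕ} (blk : Fin n → Fin t) (m : ℕ) (hm : 2 ≤ m)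
    (hfib : ∀ b : Fin t, (Finset.univ.filter (fun i => blk i = b)).card = m)
    (M : Subgroup (GL (Fin n) K)) (hH : BlkLE blk M)
    (b1 b2 : Fin t) (hb : b1 ≠ b2)
    (hfull : ∀ i j : Fin n, blk i = b1 → blk j = b2 → ∀ c : K,
      ∃ k ∈ M, k.1 = Matrix.transvection i j c) :
    ∀ i j : Fin n, blk i ≠ blk j → ∀ c : K, ∃ k ∈ M, k.1 = Matrix.transvection i j c := by
  intro i j hij c
  obtain ⟨σ, hσ1, hσ2⟩ := exists_perm_two b1 b2 (blk i) (blk j) hb hij
  obtain ⟨π, hπ⟩ := Cfsg.Agent.Helper28.C2P.blk_perm_lift blk m hfib σ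
  obtain ⟨i', hi'⟩ : ∃ i', π i' = i := ⟨π⁻¹ i, by simp⟩
  obtain ⟨j', hj'⟩ : ∃ j', π j' = j := ⟨π⁻¹ j, by simp⟩
  have hbi : blk i' = b1 := by
    apply σ.injective
    rw [← hπ, hσ1, hi']
  have hbj : blk j' = b2 := by
    apply σ.injective
    rw [← hπ, hσ2, hj']
  have hne : j' ≠ i' := by
    intro h
    rw [h, hbi] at hbj
    exact hb hbj
  have hεε := sign_mul_self (K := K) π
  obtain ⟨d, hd⟩ : ∃ d : Fin n → K, d = fun q =>
      (if q = i' then (((Equiv.Perm.sign π : ℤˣ) : ℤ) : K) else 1) := ⟨_, rfl⟩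
  have hprod : ∏ x, d x = (((Equiv.Perm.sign π : ℤˣ) : ℤ) : K) := by
    rw [hd, Finset.prod_ite_eq']
    simp
  have hdet : (gpm π d).det = 1 := by
    rw [gpm_det, hprod, hεε]
  have hd_i : d i' = (((Equiv.Perm.sign π : ℤˣ) : ℤ) : K) := by
    rw [hd]
    simp
  have hd_j : d j' = 1 := by
    rw [hd]
    simp [hne]
  have hmem : ∀ w : GL (Fin n) K, w.1 = gpm π d → w ∈ M := by
    intro w hw
    refine hH w ?_ (by rw [hw]; exact hdet)
    rw [hw]
    refine ⟨σ, fun p q hpq => ?_⟩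
    rw [gpm_apply, if_neg]
    rintro rfl
    exact hpq (hπ q)
  obtain ⟨g, hg, hgeq⟩ := hfull i' j' hbi hbj (c * (((Equiv.Perm.sign π : ℤˣ) : ℤ) : K))
  have h4 := conj_tv M π d hdet hmem i' j' (c * (((Equiv.Perm.sign π : ℤˣ) : ℤ) : K)) c
    (by rw [hd_i, hd_j, mul_one, mul_comm, mul_assoc, hεε, mul_one]) g hg hgeq
  rw [hi', hj'] at h4
  exact h4

end Cfsg.Agent.Helper28.C2X5b
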