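import Mathlib
import Cfsg.Agent.Helper98.C2Defs
import Cfsg.Agent.Helper28.C2Mono
set_option autoImplicit false

/-! # CALL S5634, piece Z: one elementary transvection gives all of them -/

namespace Cfsg.Agent.Helper28.C2Z
open Matrix Cfsg.Agent.Helper98.C2
open scoped MatrixGroups
open Cfsg.Agent.Helper28.C2Mono

variable {K : Type*} [Field K]

/-- PIECE Z -/
theorem tv_all (n : ℕ) (hn : 3 ≤ n) (M : Subgroup (GL (Fin n) K)) (hH : MonSLLE M)
    (hT : HasTv M) :
    ∀ i j : Fin n, i ≠ j → ∀ c : K, ∃ k ∈ M, k.1 = Matrix.transvection i j c := by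
  obtain ⟨g, hg, i0, j0, hij0, c0, hc0, hgeq⟩ := hT
  intro i j hij c
  by_cases hc : c = 0
  · subst hc
    exact ⟨1, M.one_mem, by rw [Matrix.transvection_zero]; rfl⟩
  obtain ⟨π, hπi, hπj⟩ := exists_perm_two i0 j0 i j hij0 hij
  obtain ⟨l, hli, hlj⟩ : ∃ l : Fin n, l ≠ i0 ∧ l ≠ j0 := by
    by_contra hcon
    push Not at hcon
    have hsub : (Finset.univ : Finset (Fin n)) ⊆ {i0, j0} := by
      intro x _
      by_cases hx : x = i0
      · simp [hx]
      · simp [hcon x hx]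
    have h1 := Finset.card_le_card hsub
    rw [Finset.card_univ, Fintype.card_fin] at h1
    have h2 : ({i0, j0} : Finset (Fin n)).card ≤ 2 := Finset.card_le_two
    omega
  have hεε := sign_mul_self (K := K) π
  obtain ⟨d, hd⟩ : ∃ d : Fin n → K, d = fun q =>
      (if q = i0 then c / c0 else 1) * (if q = l then (((Equiv.Perm.sign π : ℤˣ) : ℤ) : K) * (c0 / c) else 1) :=
    ⟨_, rfl⟩
  have hprod : ∏ x, d x = (c / c0) * ((((Equiv.Perm.sign π : ℤˣ) : ℤ) : K) * (c0 / c)) := by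
    rw [hd, Finset.prod_mul_distrib, Finset.prod_ite_eq', Finset.prod_ite_eq']
    simp
  have hdet : (gpm π d).det = 1 := by
    rw [gpm_det, hprod]
    have h3 : (c / c0) * (c0 / c) = 1 := by field_simp
    calc (((Equiv.Perm.sign π : ℤˣ) : ℤ) : K) * (c / c0 * ((((Equiv.Perm.sign π : ℤˣ) : ℤ) : K) * (c0 / c)))
        = ((((Equiv.Perm.sign π : ℤˣ) : ℤ) : K) * (((Equiv.Perm.sign π : ℤˣ) : ℤ) : K)) *
          ((c / c0) * (c0 / c)) := by ring
      _ = 1 := by rw [hεε, h3, one_mul]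
  have hd_i0 : d i0 = c / c0 := by
    rw [hd]
    simp [hli.symm]
  have hd_j0 : d j0 = 1 := by
    rw [hd]
    simp [hij0.symm, hlj.symm]
  have h4 := conj_tv M π d hdet
    (fun w hw => hH w (by rw [hw]; exact gpm_isMono π d) (by rw [hw]; exact hdet)) i0 j0 c0 c
    (by rw [hd_i0, hd_j0]; field_simp) g hg hgeq
  rw [hπi, hπj] at h4
  exact h4

end Cfsg.Agent.Helper28.C2Z
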