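import Mathlib
import Cfsg.Agent.Helper96.C3SDefs

/-! # CALL S5664, piece CONJ: conjugating `F`-Siegel elements and `F`-transvections by isometries -/

set_option autoImplicit false

namespace Cfsg.Agent.Helper28.C3S

open Module Cfsg.Agent.Helper96.C3S

variable {F K V : Type*} [Field F] [Field K] [Algebra F K] [AddCommGroup V] [Module F V]
  [Module K V] [IsScalarTower F K V]

/-- PIECE CONJ (1/2): conjugating an `F`-Siegel element by an isometry -/
theorem eF_conj (φ : LinearMap.BilinForm K V) (g g' : Module.End F V) (h1 : g * g' = 1)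
    (h2 : g' * g = 1) (hiso : ∀ u v, fT (F := F) φ (g u) (g v) = fT (F := F) φ u v) (u w : V) :
    g * eF φ u w * g' = eF φ (g u) (g w) := by
  have hgg : ∀ v, g (g' v) = v := fun v => by
    have h := congrArg (fun f : Module.End F V => f v) h1
    simpa using h
  have key : ∀ v x, fT (F := F) φ (g' v) x = fT (F := F) φ v (g x) := fun v x => by
    rw [← hiso, hgg]
  apply LinearMap.ext
  intro v
  rw [Module.End.mul_apply, Module.End.mul_apply, eF_apply, eF_apply, map_add, map_add, map_smul,
    map_smul, hgg, key, key]

/-- PIECE CONJ (2/2) -/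
theorem tF_conj (φ : LinearMap.BilinForm K V) (g g' : Module.End F V) (h1 : g * g' = 1)
    (h2 : g' * g = 1) (hiso : ∀ u v, fT (F := F) φ (g u) (g v) = fT (F := F) φ u v) (u : V) (s : F) :
    g * tF φ u s * g' = tF φ (g u) s := by
  have hgg : ∀ v, g (g' v) = v := fun v => by
    have h := congrArg (fun f : Module.End F V => f v) h1
    simpa using h
  have key : ∀ v x, fT (F := F) φ (g' v) x = fT (F := F) φ v (g x) := fun v x => by
    rw [← hiso, hgg]
  apply LinearMap.ext
  intro v
  rw [Module.End.mul_apply, Module.End.mul_apply, tF_apply, tF_apply, map_add, map_smul, hgg, key]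

end Cfsg.Agent.Helper28.C3S
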