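import Mathlib
import Cfsg.Agent.Helper96.C3SDefs

/-! # CALL S5664, piece ELT: the `K`-linear transvections, Siegel elements and torus elements are isometries -/

set_option autoImplicit false

namespace Cfsg.Agent.Helper28.C3S

open Module Cfsg.Agent.Helper96.C3S

variable {F K V : Type*} [Field F] [Field K] [Algebra F K] [AddCommGroup V] [Module F V]
  [Module K V] [IsScalarTower F K V]

/-- PIECE ELT (1/3) -/
theorem kT_iso (φ : LinearMap.BilinForm K V) (alt : ∀ v, φ v v = 0) (a : V) (c : K) (u v : V) :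
    φ (kT φ a c u) (kT φ a c v) = φ u v := by
  have e1 : φ a v = - φ v a := skew alt a v
  rw [kT_apply, kT_apply]
  simp only [map_add, map_smul, LinearMap.add_apply, LinearMap.smul_apply, smul_eq_mul, alt, e1]
  ring

/-- PIECE ELT (2/3) -/
theorem kS_iso (φ : LinearMap.BilinForm K V) (alt : ∀ v, φ v v = 0) (a a' : V) (h : φ a a' = 0)
    (u v : V) : φ (kS φ a a' u) (kS φ a a' v) = φ u v := by
  have e1 : φ a v = - φ v a := skew alt a v
  have e2 : φ a' v = - φ v a' := skew alt a' v
  have e3 : φ a' a = 0 := by rw [skew alt a' a, h, neg_zero]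
  rw [kS_apply, kS_apply]
  simp only [map_add, map_smul, LinearMap.add_apply, LinearMap.smul_apply, smul_eq_mul, alt, e1, e2,
    e3, h]
  ring

/-- PIECE ELT (3/3) -/
theorem kH_iso (φ : LinearMap.BilinForm K V) (alt : ∀ v, φ v v = 0) (a b : V) (hab : φ a b = 1)
    (l : K) (hl : l ≠ 0) (u v : V) : φ (kH φ a b l u) (kH φ a b l v) = φ u v := by
  have e1 : φ a v = - φ v a := skew alt a v
  have e2 : φ b v = - φ v b := skew alt b v
  have e3 : φ b a = -1 := by rw [skew alt b a, hab]
  have hl' : l * l⁻¹ = 1 := mul_inv_cancel₀ hl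
  rw [kH_apply, kH_apply]
  simp only [map_add, map_sub, map_smul, LinearMap.add_apply, LinearMap.sub_apply,
    LinearMap.smul_apply, smul_eq_mul, alt, e1, e2, e3, hab]
  linear_combination (φ u a * φ v b - φ v a * φ u b) * hl'

end Cfsg.Agent.Helper28.C3S
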