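import Mathlib
import Cfsg.Agent.Helper96.C3SDefs
import Cfsg.Agent.Helper28.C3SELT

/-! # CALL S5664, piece TRANS: the symplectic group is transitive on nonzero vectors -/

set_option autoImplicit false

namespace Cfsg.Agent.Helper28.C3S

open Module Cfsg.Agent.Helper96.C3S

variable {F K V : Type*} [Field F] [Field K] [Algebra F K] [AddCommGroup V] [Module F V]
  [Module K V] [IsScalarTower F K V]

theorem k_trans_aux (φ : LinearMap.BilinForm K V) (alt : ∀ v, φ v v = 0) (a a' : V)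
    (h : φ a a' ≠ 0) : ∃ n : V →ₗ[K] V, (∀ u v, φ (n u) (n v) = φ u v) ∧ n a = a' := by
  refine ⟨kT φ (a - a') (φ a a')⁻¹, fun u v => kT_iso φ alt _ _ u v, ?_⟩
  rw [kT_apply, map_sub, alt, zero_sub, mul_neg, inv_mul_cancel₀ h, neg_smul, one_smul]
  abel

/-- PIECE TRANS: `Sp(V, φ)` is transitive on nonzero vectors -/
theorem k_trans (φ : LinearMap.BilinForm K V) (alt : ∀ v, φ v v = 0)
    (nd : ∀ u, (∀ v, φ u v = 0) → u = 0) (a a' : V) (ha : a ≠ 0) (ha' : a' ≠ 0) :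
    ∃ n : V →ₗ[K] V, (∀ u v, φ (n u) (n v) = φ u v) ∧ n a = a' := by
  by_cases h : φ a a' = 0
  · obtain ⟨x, hx⟩ : ∃ x, φ a x ≠ 0 := by
      by_contra hc
      push Not at hc
      exact ha (nd a hc)
    obtain ⟨y, hy⟩ : ∃ y, φ a' y ≠ 0 := by
      by_contra hc
      push Not at hc
      exact ha' (nd a' hc)
    obtain ⟨a₁, h1, h2⟩ : ∃ a₁, φ a a₁ ≠ 0 ∧ φ a' a₁ ≠ 0 := by
      by_cases hx' : φ a' x = 0
      · by_cases hy' : φ a y = 0
        · refine ⟨x + y, ?_, ?_⟩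
          · rw [map_add, hy', add_zero]; exact hx
          · rw [map_add, hx', zero_add]; exact hy
        · exact ⟨y, hy', hy⟩
      · exact ⟨x, hx, hx'⟩
    obtain ⟨n₁, hn₁, hn₁a⟩ := k_trans_aux φ alt a a₁ h1
    obtain ⟨n₂, hn₂, hn₂a⟩ := k_trans_aux φ alt a₁ a' (by
      rw [skew alt]; exact neg_ne_zero.mpr h2)
    refine ⟨n₂.comp n₁, fun u v => ?_, ?_⟩
    · rw [LinearMap.comp_apply, LinearMap.comp_apply, hn₂, hn₁]
    · rw [LinearMap.comp_apply, hn₁a, hn₂a]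
  · exact k_trans_aux φ alt a a' h

end Cfsg.Agent.Helper28.C3S
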