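import Mathlib
import Cfsg.Agent.Helper96.C3SDefs
import Cfsg.Agent.Helper28.C3STRANS
import Cfsg.Agent.Helper28.C3SCONJ
import Cfsg.Agent.Helper3.C3SINV

/-! # CALL S5664, piece ALL: one family of `F`-transvections gives all of them -/

set_option autoImplicit false

namespace Cfsg.Agent.Helper28.C3S

open Module Cfsg.Agent.Helper96.C3S

variable {F K V : Type*} [Field F] [Field K] [Algebra F K] [AddCommGroup V] [Module F V]
  [Module K V] [IsScalarTower F K V]

/-- PIECE ALL -/
theorem all_tv [Fintype F] [Finite K] [Module.Finite K V] {φ : LinearMap.BilinForm K V}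
    {P : Module.End F V → Prop} (h : Hyp φ P) (u₀ : V) (hu₀ : u₀ ≠ 0)
    (h0 : ∀ s : F, P (tF φ u₀ s)) (u : V) (s : F) : P (tF φ u s) := by
  by_cases hu : u = 0
  · subst hu
    have h1 : tF (F := F) φ 0 s = 1 := by
      apply LinearMap.ext
      intro v
      rw [tF_apply, smul_zero, add_zero]
      rfl
    rw [h1]
    exact h.grp.one
  · obtain ⟨n, hn, hna⟩ := k_trans φ h.alt h.nd u₀ u hu₀ hu
    have hg : P (n.restrictScalars F) := h.lin n hn
    obtain ⟨g', h1, h2, hg'⟩ := Cfsg.Agent.Helper3.C3S.p_inv h _ hg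
    have h3 := tF_conj φ (n.restrictScalars F) g' h1 h2 (h.iso _ hg) u₀ s
    have h4 : (n.restrictScalars F) u₀ = u := hna
    rw [h4] at h3
    rw [← h3]
    exact h.grp.mul _ _ (h.grp.mul _ _ hg (h0 s)) hg'

end Cfsg.Agent.Helper28.C3S
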