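import Mathlib
import Cfsg.Prelude.Def_GeometricClasses
import Cfsg.Prelude.Def_ClassicalGeometry
import Cfsg.Agent.Helper96.C3SDefs

/-! # CALL S5664, piece WSTRICT: an `F`-transvection is not `K`-semilinear -/

set_option autoImplicit false

namespace Cfsg.Agent.Helper28.C3S

open Module Cfsg.Agent.Helper96.C3S

variable {F K V : Type*} [Field F] [Field K] [Algebra F K] [AddCommGroup V] [Module F V]
  [Module K V] [IsScalarTower F K V]

/-- PIECE WSTRICT: an `F`-transvection is not `K`-semilinear -/
theorem tF_not_N [Finite F] [Finite K] (φ : LinearMap.BilinForm K V) (alt : ∀ v, φ v v = 0)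
    (a b : V) (hab : φ a b = 1) (h2 : 2 ≤ finrank F K) :
    ¬ Helper98.c3_N K (tF (F := F) φ a 1) := by
  rintro ⟨-, hsl⟩
  obtain ⟨e, he⟩ := trace_surj (F := F) (K := K) 1
  have hba : φ b a = -1 := by rw [skew alt b a, hab]
  obtain ⟨k, hk⟩ : ∃ k : K, ∀ s : F, algebraMap F K s ≠ k := by
    by_contra hcon
    push Not at hcon
    have h1 : finrank F K = 1 := by
      rw [finrank_eq_one_iff_of_nonzero' (1 : K) one_ne_zero]
      intro w
      obtain ⟨s, hs⟩ := hcon w
      exact ⟨s, by rw [Algebra.smul_def, mul_one, hs]⟩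
    omega
  obtain ⟨k', hk'⟩ := hsl k
  have h1 := hk' (e • b)
  have e1 : φ (e • b) a = -e := by
    rw [map_smul, LinearMap.smul_apply, hba, smul_eq_mul, mul_neg, mul_one]
  have e2 : φ (k • e • b) a = -(k * e) := by
    rw [map_smul, LinearMap.smul_apply, e1, smul_eq_mul, mul_neg]
  have e3 : φ (e • b) b = 0 := by
    rw [map_smul, LinearMap.smul_apply, alt, smul_zero]
  have e4 : φ (k • e • b) b = 0 := by
    rw [map_smul, LinearMap.smul_apply, e3, smul_zero]
  rw [tF_apply, tF_apply, fT_apply, fT_apply, one_mul, one_mul, e1, e2, map_neg, map_neg, he,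
    ← algebraMap_smul K (-(Algebra.trace F K (k * e))) a, ← algebraMap_smul K (-1 : F) a] at h1
  have ha := congrArg (fun x => φ x a) h1
  have hb := congrArg (fun x => φ x b) h1
  simp only [map_add, map_smul, LinearMap.add_apply, LinearMap.smul_apply, smul_eq_mul, alt, hab, hba,
    e1, e2, e3, e4, map_neg, map_one, mul_zero, add_zero, zero_add, mul_one, mul_neg] at ha hb
  have he0 : e ≠ 0 := by
    rintro rfl
    rw [map_zero] at he
    exact zero_ne_one he
  have hkk : k = k' := by
    have h3 : k * e = k' * e := by linear_combination -ha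
    exact mul_right_cancel₀ he0 h3
  have h4 : algebraMap F K (Algebra.trace F K (k * e)) = k' := by linear_combination -hb
  exact hk (Algebra.trace F K (k * e)) (h4.trans hkk.symm)

end Cfsg.Agent.Helper28.C3S
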