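import Mathlib

set_option autoImplicit false

/-! PIECE A of CALL S2376 (helper18): the quadratic extension `L` of `K = F_{q^3}` with the
`q`-Frobenius of order 6. -/

namespace Cfsg.Agent.Helper28

theorem exists_sextic_frobenius (K : Type*) [Field K] [Fintype K] (q : ℕ)
    (hK : Fintype.card K = q ^ 3) :
    ∃ (L : Type) (_ : Field L) (_ : Fintype L) (ι : K →+* L) (φ : L →+* L),
      Fintype.card L = q ^ 6 ∧
      (∀ x : L, φ x = x ^ q) ∧
      (∀ x : L, φ (φ (φ x)) = x → ∃ y : K, ι y = x) ∧
      (∃ θ : L, φ θ ≠ θ ∧ φ (φ θ) = θ) ∧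
      (∃ ω : Lˣ, orderOf ω = q ^ 6 - 1) := by
  classical
  have hq1 : 1 < q := by
    have h := Fintype.one_lt_card (α := K)
    rw [hK] at h
    by_contra hcon
    have hq : q = 0 ∨ q = 1 := by omega
    rcases hq with rfl | rfl <;> norm_num at h
  have hcp : CharP K (ringChar K) := ringChar.charP K
  have hp : Fact (ringChar K).Prime := ⟨CharP.char_is_prime K (ringChar K)⟩
  obtain ⟨k, -, hk⟩ := FiniteField.card K (ringChar K)
  obtain ⟨j, hj⟩ : ∃ j, q = (ringChar K) ^ j := by
    have h : q ∣ (ringChar K) ^ (k : ℕ) := by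
      rw [← hk, hK]
      exact dvd_pow_self q (by norm_num)
    obtain ⟨j, -, hj⟩ := (Nat.dvd_prime_pow hp.out).1 h
    exact ⟨j, hj⟩
  have hne : NeZero 2 := ⟨by norm_num⟩
  let L : Type := FiniteField.Extension K (ringChar K) 2
  let _ : Fintype L := Fintype.ofFinite L
  let fr : L ≃ₐ[K] L := FiniteField.Extension.frob K (ringChar K) 2
  have hfr : ∀ x : L, fr x = x ^ Fintype.card K := by
    intro x
    have h := FiniteField.Extension.frob_apply (k := K) (p := ringChar K) (n := 2) (x := x)
    rw [Nat.card_eq_fintype_card] at h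
    exact h
  have hcard : Fintype.card L = q ^ 6 := by
    rw [Fintype.card_eq_nat_card, FiniteField.natCard_extension, Nat.card_eq_fintype_card, hK]
    ring
  have hfix : ∀ x : L, fr x = x → ∃ y : K, algebraMap K L y = x := by
    intro x hx
    have hmem : x ∈ Set.range (algebraMap K L) := by
      rw [IsGalois.mem_range_algebraMap_iff_fixed]
      intro g
      obtain ⟨i, -, rfl⟩ := FiniteField.Extension.exists_frob_pow_eq K (ringChar K) 2 g
      induction i with
      | zero => simp
      | succ i ih =>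
        rw [pow_succ, AlgEquiv.mul_apply]
        change (FiniteField.Extension.frob K (ringChar K) 2 ^ i) (fr x) = x
        rw [hx]; exact ih
    exact hmem
  have hcharL : CharP L (ringChar K) :=
    charP_of_injective_algebraMap (algebraMap K L).injective (ringChar K)
  have hexp : ExpChar L (ringChar K) := ExpChar.prime hp.out
  have hφ : ∀ x : L, iterateFrobenius L (ringChar K) j x = x ^ q := by
    intro x
    rw [iterateFrobenius_def, hj]
  -- a generator of the unit group
  obtain ⟨g, hg⟩ := IsCyclic.exists_generator (α := Lˣ)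
  have hog : orderOf g = q ^ 6 - 1 := by
    rw [orderOf_eq_card_of_forall_mem_zpowers hg, Nat.card_eq_fintype_card, Fintype.card_units,
      hcard]
  have hq2 : 1 ≤ q ^ 2 := Nat.one_le_pow _ _ (by omega)
  have hfac : q ^ 6 - 1 = (q ^ 4 + q ^ 2 + 1) * (q ^ 2 - 1) := by
    obtain ⟨m, hm⟩ : ∃ m, q ^ 2 = m + 1 := ⟨q ^ 2 - 1, by omega⟩
    have h6 : q ^ 6 = (q ^ 2) ^ 3 := by ring
    have h4 : q ^ 4 = (q ^ 2) ^ 2 := by ring
    rw [h6, h4, hm]
    have h : (m + 1) ^ 3 = ((m + 1) ^ 2 + (m + 1) + 1) * m + 1 := by ring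
    rw [h]
    simp
  obtain ⟨u, hu⟩ : ∃ u : Lˣ, u = g ^ (q ^ 4 + q ^ 2 + 1) := ⟨_, rfl⟩
  have hou : orderOf u = q ^ 2 - 1 := by
    rw [hu, orderOf_pow_of_dvd (by positivity) (by rw [hog, hfac]; exact dvd_mul_right _ _), hog,
      hfac]
    exact Nat.mul_div_cancel_left _ (by positivity)
  refine ⟨L, inferInstance, inferInstance, algebraMap K L, iterateFrobenius L (ringChar K) j,
    hcard, hφ, ?_, ?_, ⟨g, hog⟩⟩
  · intro x hx
    apply hfix
    rw [hfr, hK]
    rw [hφ, hφ, hφ, ← pow_mul, ← pow_mul] at hx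
    have e : q * (q * q) = q ^ 3 := by ring
    rw [e] at hx
    exact hx
  · refine ⟨(u : L), ?_, ?_⟩
    · intro h
      rw [hφ] at h
      have h1 : u ^ q = u := by
        apply Units.ext
        rw [Units.val_pow_eq_pow_val]
        exact h
      have h2 : u ^ (q - 1) = 1 := by
        have h3 : u ^ (q - 1) * u = u := by
          rw [← pow_succ, Nat.sub_add_cancel (by omega)]
          exact h1
        exact mul_eq_right.mp h3
      have h4 := orderOf_dvd_of_pow_eq_one h2
      rw [hou] at h4
      have h5 := Nat.le_of_dvd (by omega) h4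
      have h6 : q < q ^ 2 := by nlinarith
      omega
    · rw [hφ, hφ, ← pow_mul]
      have h1 : u ^ (q * q) = u := by
        have h2 : q * q = (q ^ 2 - 1) + 1 := by
          have : q * q = q ^ 2 := by ring
          omega
        rw [h2, pow_succ, ← hou, pow_orderOf_eq_one, one_mul]
      have h3 := congrArg Units.val h1
      rw [Units.val_pow_eq_pow_val] at h3
      exact h3

end Cfsg.Agent.Helper28
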