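import Mathlib

set_option autoImplicit false

/-! PIECE B of CALL S2376 (helper18): the 24 exponents attached to the roots of `D₄` are pairwise
distinct and non-zero modulo `q^6 - 1`. -/

namespace Cfsg.Agent.Helper28

/-- A non-zero vector of four small digits does not give a multiple of `q^4 + q^3 - q - 1`. -/
theorem d4_digits (q M : ℤ) (hM0 : 0 ≤ M) (hMq : M < q)
    (hbig : M * (1 + q + q ^ 2 + q ^ 3) < q ^ 4 + q ^ 3 - q - 1)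
    (d0 d1 d2 d3 : ℤ) (h0 : |d0| ≤ M) (h1 : |d1| ≤ M) (h2 : |d2| ≤ M) (h3 : |d3| ≤ M)
    (hne : ¬ (d0 = 0 ∧ d1 = 0 ∧ d2 = 0 ∧ d3 = 0)) :
    ¬ (q ^ 4 + q ^ 3 - q - 1) ∣ (d0 + d1 * q + d2 * q ^ 2 + d3 * q ^ 3) := by
  intro hdvd
  have hq0 : 0 < q := lt_of_le_of_lt hM0 hMq
  have hq2 : 0 ≤ q ^ 2 := by positivity
  have hq3 : 0 ≤ q ^ 3 := by positivity
  obtain ⟨h0l, h0u⟩ := abs_le.mp h0
  obtain ⟨h1l, h1u⟩ := abs_le.mp h1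
  obtain ⟨h2l, h2u⟩ := abs_le.mp h2
  obtain ⟨h3l, h3u⟩ := abs_le.mp h3
  have e1u : d1 * q ≤ M * q := mul_le_mul_of_nonneg_right h1u hq0.le
  have e1l : -M * q ≤ d1 * q := mul_le_mul_of_nonneg_right h1l hq0.le
  have e2u : d2 * q ^ 2 ≤ M * q ^ 2 := mul_le_mul_of_nonneg_right h2u hq2
  have e2l : -M * q ^ 2 ≤ d2 * q ^ 2 := mul_le_mul_of_nonneg_right h2l hq2
  have e3u : d3 * q ^ 3 ≤ M * q ^ 3 := mul_le_mul_of_nonneg_right h3u hq3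
  have e3l : -M * q ^ 3 ≤ d3 * q ^ 3 := mul_le_mul_of_nonneg_right h3l hq3
  have hv : |d0 + d1 * q + d2 * q ^ 2 + d3 * q ^ 3| < q ^ 4 + q ^ 3 - q - 1 := by
    rw [abs_lt]
    constructor <;> nlinarith
  have hz := Int.eq_zero_of_abs_lt_dvd hdvd hv
  -- the digits vanish one after the other
  have key : ∀ x y : ℤ, |x| ≤ M → x + y * q = 0 → x = 0 ∧ y = 0 := by
    intro x y hx hxy
    have hdx : q ∣ x := ⟨-y, by linarith⟩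
    have hx0 : x = 0 := Int.eq_zero_of_abs_lt_dvd hdx (lt_of_le_of_lt hx hMq)
    refine ⟨hx0, ?_⟩
    rw [hx0, zero_add] at hxy
    rcases mul_eq_zero.mp hxy with h | h
    · exact h
    · exact absurd h hq0.ne'
  obtain ⟨hd0, hr1⟩ := key d0 (d1 + d2 * q + d3 * q ^ 2) h0 (by linarith)
  obtain ⟨hd1, hr2⟩ := key d1 (d2 + d3 * q) h1 (by linarith)
  obtain ⟨hd2, hd3⟩ := key d2 d3 h2 (by linarith)
  exact hne ⟨hd0, hd1, hd2, hd3⟩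

/-- The reduction to the digit vector. -/
theorem d4_reduce (q c0 c1 c2 c3 : ℤ) (hq : 2 ≤ q)
    (h : (q ^ 6 - 1) ∣ ((q ^ 3 + 1) * (c0 + q * c2 + q ^ 2 * c3) + (q ^ 4 + q ^ 2 + 1) * c1)) :
    (q ^ 4 + q ^ 3 - q - 1) ∣
      ((c0 + c1) + (c0 + c1 + c2) * q + (c1 + c2 + c3) * q ^ 2 + c3 * q ^ 3) := by
  have hne : q ^ 2 - q + 1 ≠ 0 := by nlinarith
  have e1 : q ^ 6 - 1 = (q ^ 2 - q + 1) * (q ^ 4 + q ^ 3 - q - 1) := by ring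
  have e2 : (q ^ 3 + 1) * (c0 + q * c2 + q ^ 2 * c3) + (q ^ 4 + q ^ 2 + 1) * c1 =
      (q ^ 2 - q + 1) * ((c0 + c1) + (c0 + c1 + c2) * q + (c1 + c2 + c3) * q ^ 2 + c3 * q ^ 3) := by
    ring
  rw [e1, e2] at h
  exact (mul_dvd_mul_iff_left hne).mp h

/-- the list of the 24 Cartan vectors -/
def d4List : List (ℤ × ℤ × ℤ × ℤ) :=
  [((0 : ℤ), (-1 : ℤ), (0 : ℤ), (0 : ℤ)), (-1, 1, -1, -1), (-1, 0, -1, 1), (-1, 0, 1, -1),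
      (-1, -1, 1, 1), (-2, 1, 0, 0), (1, 0, -1, -1), (1, -1, -1, 1), (1, -1, 1, -1), (1, -2, 1, 1),
      (0, 1, -2, 0), (0, 1, 0, -2), (0, -1, 0, 2), (0, -1, 2, 0), (-1, 2, -1, -1), (-1, 1, -1, 1),
      (-1, 1, 1, -1), (-1, 0, 1, 1), (2, -1, 0, 0), (1, 1, -1, -1), (1, 0, -1, 1), (1, 0, 1, -1),
      (1, -1, 1, 1), (0, 1, 0, 0)]

theorem d4List_bounds : ∀ a ∈ d4List, |a.1 + a.2.1| ≤ 2 ∧ |a.1 + a.2.1 + a.2.2.1| ≤ 2 ∧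
    |a.2.1 + a.2.2.1 + a.2.2.2| ≤ 2 ∧ |a.2.2.2| ≤ 2 ∧
    ¬ (a.1 + a.2.1 = 0 ∧ a.1 + a.2.1 + a.2.2.1 = 0 ∧ a.2.1 + a.2.2.1 + a.2.2.2 = 0 ∧
      a.2.2.2 = 0) := by
  decide

theorem d4_small3 : ∀ a ∈ d4List, ∀ b ∈ d4List, a ≠ b →
    ¬ ((104 : ℤ) ∣ (((a.1 - b.1) + (a.2.1 - b.2.1)) + ((a.1 - b.1) + (a.2.1 - b.2.1) +
      (a.2.2.1 - b.2.2.1)) * 3 + ((a.2.1 - b.2.1) + (a.2.2.1 - b.2.2.1) + (a.2.2.2 - b.2.2.2)) * 3 ^ 2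
      + (a.2.2.2 - b.2.2.2) * 3 ^ 3)) := by
  decide

theorem d4_small4 : ∀ a ∈ d4List, ∀ b ∈ d4List, a ≠ b →
    ¬ ((315 : ℤ) ∣ (((a.1 - b.1) + (a.2.1 - b.2.1)) + ((a.1 - b.1) + (a.2.1 - b.2.1) +
      (a.2.2.1 - b.2.2.1)) * 4 + ((a.2.1 - b.2.1) + (a.2.2.1 - b.2.2.1) + (a.2.2.2 - b.2.2.2)) * 4 ^ 2
      + (a.2.2.2 - b.2.2.2) * 4 ^ 3)) := by
  decide

theorem d4_small2 : ∀ a ∈ d4List,
    ¬ ((21 : ℤ) ∣ ((a.1 + a.2.1) + (a.1 + a.2.1 + a.2.2.1) * 2 + (a.2.1 + a.2.2.1 + a.2.2.2) * 2 ^ 2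
      + a.2.2.2 * 2 ^ 3)) := by
  decide

theorem d4_exponents_distinct (q : ℕ) (hq : 3 ≤ q) (a b : ℤ × ℤ × ℤ × ℤ)
    (ha : a ∈ [((0 : ℤ), (-1 : ℤ), (0 : ℤ), (0 : ℤ)), (-1, 1, -1, -1), (-1, 0, -1, 1), (-1, 0, 1, -1),
      (-1, -1, 1, 1), (-2, 1, 0, 0), (1, 0, -1, -1), (1, -1, -1, 1), (1, -1, 1, -1), (1, -2, 1, 1),
      (0, 1, -2, 0), (0, 1, 0, -2), (0, -1, 0, 2), (0, -1, 2, 0), (-1, 2, -1, -1), (-1, 1, -1, 1),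
      (-1, 1, 1, -1), (-1, 0, 1, 1), (2, -1, 0, 0), (1, 1, -1, -1), (1, 0, -1, 1), (1, 0, 1, -1),
      (1, -1, 1, 1), (0, 1, 0, 0)])
    (hb : b ∈ [((0 : ℤ), (-1 : ℤ), (0 : ℤ), (0 : ℤ)), (-1, 1, -1, -1), (-1, 0, -1, 1), (-1, 0, 1, -1),
      (-1, -1, 1, 1), (-2, 1, 0, 0), (1, 0, -1, -1), (1, -1, -1, 1), (1, -1, 1, -1), (1, -2, 1, 1),
      (0, 1, -2, 0), (0, 1, 0, -2), (0, -1, 0, 2), (0, -1, 2, 0), (-1, 2, -1, -1), (-1, 1, -1, 1),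
      (-1, 1, 1, -1), (-1, 0, 1, 1), (2, -1, 0, 0), (1, 1, -1, -1), (1, 0, -1, 1), (1, 0, 1, -1),
      (1, -1, 1, 1), (0, 1, 0, 0)])
    (hab : a ≠ b) :
    ¬ (((q : ℤ) ^ 6 - 1) ∣ (((q : ℤ) ^ 3 + 1) * ((a.1 - b.1) + (q : ℤ) * (a.2.2.1 - b.2.2.1) +
      (q : ℤ) ^ 2 * (a.2.2.2 - b.2.2.2)) + ((q : ℤ) ^ 4 + (q : ℤ) ^ 2 + 1) * (a.2.1 - b.2.1))) := by
  have ha' : a ∈ d4List := ha
  have hb' : b ∈ d4List := hb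
  intro hdvd
  have hq2 : (2 : ℤ) ≤ (q : ℤ) := by exact_mod_cast (by omega : 2 ≤ q)
  have hred := d4_reduce (q : ℤ) (a.1 - b.1) (a.2.1 - b.2.1) (a.2.2.1 - b.2.2.1)
    (a.2.2.2 - b.2.2.2) hq2 hdvd
  rcases Nat.lt_or_ge q 5 with h5 | h5
  · interval_cases q
    · have h3 := d4_small3 a ha' b hb' hab
      apply h3
      have e : ((3 : ℕ) : ℤ) ^ 4 + ((3 : ℕ) : ℤ) ^ 3 - ((3 : ℕ) : ℤ) - 1 = 104 := by norm_num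
      rw [e] at hred
      exact_mod_cast hred
    · have h4 := d4_small4 a ha' b hb' hab
      apply h4
      have e : ((4 : ℕ) : ℤ) ^ 4 + ((4 : ℕ) : ℤ) ^ 3 - ((4 : ℕ) : ℤ) - 1 = 315 := by norm_num
      rw [e] at hred
      exact_mod_cast hred
  · have hq5 : (5 : ℤ) ≤ (q : ℤ) := by exact_mod_cast h5
    obtain ⟨a1, a2, a3, a4, -⟩ := d4List_bounds a ha'
    obtain ⟨b1, b2, b3, b4, -⟩ := d4List_bounds b hb'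
    rw [abs_le] at a1 a2 a3 a4 b1 b2 b3 b4
    refine d4_digits (q : ℤ) 4 (by norm_num) (by linarith) ?_ _ _ _ _ ?_ ?_ ?_ ?_ ?_ hred
    · nlinarith [pow_pos (by linarith : (0 : ℤ) < q) 2, pow_pos (by linarith : (0 : ℤ) < q) 3,
        mul_nonneg (by linarith : (0 : ℤ) ≤ (q : ℤ) - 5) (pow_nonneg (by linarith : (0 : ℤ) ≤ q) 3),
        mul_nonneg (by linarith : (0 : ℤ) ≤ (q : ℤ) - 5) (pow_nonneg (by linarith : (0 : ℤ) ≤ q) 2),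
        mul_nonneg (by linarith : (0 : ℤ) ≤ (q : ℤ) - 5) (by linarith : (0 : ℤ) ≤ (q : ℤ))]
    · rw [abs_le]; constructor <;> linarith [a1.1, a1.2, b1.1, b1.2]
    · rw [abs_le]; constructor <;> linarith [a2.1, a2.2, b2.1, b2.2]
    · rw [abs_le]; constructor <;> linarith [a3.1, a3.2, b3.1, b3.2]
    · rw [abs_le]; constructor <;> linarith [a4.1, a4.2, b4.1, b4.2]
    · rintro ⟨e0, e1, e2, e3⟩
      apply hab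
      obtain ⟨x0, x1, x2, x3⟩ := a
      obtain ⟨y0, y1, y2, y3⟩ := b
      simp only at e0 e1 e2 e3
      have f3 : x3 = y3 := by linarith
      have f2 : x2 = y2 := by linarith
      have f1 : x1 = y1 := by linarith
      have f0 : x0 = y0 := by linarith
      rw [f0, f1, f2, f3]

theorem d4_exponents_ne_zero (q : ℕ) (hq : 2 ≤ q) (a : ℤ × ℤ × ℤ × ℤ)
    (ha : a ∈ [((0 : ℤ), (-1 : ℤ), (0 : ℤ), (0 : ℤ)), (-1, 1, -1, -1), (-1, 0, -1, 1), (-1, 0, 1, -1),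
      (-1, -1, 1, 1), (-2, 1, 0, 0), (1, 0, -1, -1), (1, -1, -1, 1), (1, -1, 1, -1), (1, -2, 1, 1),
      (0, 1, -2, 0), (0, 1, 0, -2), (0, -1, 0, 2), (0, -1, 2, 0), (-1, 2, -1, -1), (-1, 1, -1, 1),
      (-1, 1, 1, -1), (-1, 0, 1, 1), (2, -1, 0, 0), (1, 1, -1, -1), (1, 0, -1, 1), (1, 0, 1, -1),
      (1, -1, 1, 1), (0, 1, 0, 0)]) :
    ¬ (((q : ℤ) ^ 6 - 1) ∣ (((q : ℤ) ^ 3 + 1) * (a.1 + (q : ℤ) * a.2.2.1 +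
      (q : ℤ) ^ 2 * a.2.2.2) + ((q : ℤ) ^ 4 + (q : ℤ) ^ 2 + 1) * a.2.1)) := by
  have ha' : a ∈ d4List := ha
  intro hdvd
  have hq2 : (2 : ℤ) ≤ (q : ℤ) := by exact_mod_cast hq
  have hred := d4_reduce (q : ℤ) a.1 a.2.1 a.2.2.1 a.2.2.2 hq2 hdvd
  rcases Nat.lt_or_ge q 3 with h3 | h3
  · interval_cases q
    have h2 := d4_small2 a ha'
    apply h2
    have e : ((2 : ℕ) : ℤ) ^ 4 + ((2 : ℕ) : ℤ) ^ 3 - ((2 : ℕ) : ℤ) - 1 = 21 := by norm_num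
    rw [e] at hred
    exact_mod_cast hred
  · have hq3 : (3 : ℤ) ≤ (q : ℤ) := by exact_mod_cast h3
    obtain ⟨a1, a2, a3, a4, a5⟩ := d4List_bounds a ha'
    refine d4_digits (q : ℤ) 2 (by norm_num) (by linarith) ?_ _ _ _ _ a1 a2 a3 a4 a5 hred
    nlinarith [pow_pos (by linarith : (0 : ℤ) < q) 2, pow_pos (by linarith : (0 : ℤ) < q) 3,
      mul_nonneg (by linarith : (0 : ℤ) ≤ (q : ℤ) - 3) (pow_nonneg (by linarith : (0 : ℤ) ≤ q) 3),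
      mul_nonneg (by linarith : (0 : ℤ) ≤ (q : ℤ) - 3) (pow_nonneg (by linarith : (0 : ℤ) ≤ q) 2),
      mul_nonneg (by linarith : (0 : ℤ) ≤ (q : ℤ) - 3) (by linarith : (0 : ℤ) ≤ (q : ℤ))]

end Cfsg.Agent.Helper28
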