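import Mathlib

set_option autoImplicit false

/-! PIECE C of CALL S2376 (helper18): the order of a power of an element of order `q^6 - 1`. -/

namespace Cfsg.Agent.Helper28

theorem d4_orderOf_gen {G : Type*} [Group G] (ω : G) (q : ℕ) (hq : 2 ≤ q)
    (hω : orderOf ω = q ^ 6 - 1) :
    orderOf (ω ^ (-(q : ℤ) ^ 4 + 2 * (q : ℤ) ^ 3 - (q : ℤ) ^ 2 + 1)) = (q ^ 3 - 1) * (q + 1) := by
  obtain ⟨k, rfl⟩ : ∃ k, q = k + 2 := ⟨q - 2, by omega⟩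
  obtain ⟨A, hA⟩ : ∃ A : ℕ, A = k ^ 2 + 3 * k + 3 := ⟨_, rfl⟩
  obtain ⟨B, hB⟩ : ∃ B : ℕ, B = k ^ 2 + 3 * k + 1 := ⟨_, rfl⟩
  obtain ⟨N, hN⟩ : ∃ N : ℕ, N = (k ^ 3 + 6 * k ^ 2 + 12 * k + 7) * (k + 3) := ⟨_, rfl⟩
  have h6 : (k + 2) ^ 6 - 1 = A * N := by
    have h : (k + 2) ^ 6 = A * N + 1 := by rw [hA, hN]; ring
    omega
  have h3 : (k + 2) ^ 3 - 1 = k ^ 3 + 6 * k ^ 2 + 12 * k + 7 := by
    have h : (k + 2) ^ 3 = (k ^ 3 + 6 * k ^ 2 + 12 * k + 7) + 1 := by ring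
    omega
  have he : (-((k + 2 : ℕ) : ℤ) ^ 4 + 2 * ((k + 2 : ℕ) : ℤ) ^ 3 - ((k + 2 : ℕ) : ℤ) ^ 2 + 1) =
      -((B * A : ℕ) : ℤ) := by
    rw [hA, hB]
    push_cast
    ring
  have hA0 : 0 < A := by rw [hA]; positivity
  have hBA0 : B * A ≠ 0 := by
    have hB0 : 0 < B := by rw [hB]; positivity
    exact (Nat.mul_pos hB0 hA0).ne'
  have hcop : Nat.gcd N B = 1 := by
    have hd1 : Nat.gcd N B ∣ N := Nat.gcd_dvd_left _ _
    have hd2 : Nat.gcd N B ∣ B := Nat.gcd_dvd_right _ _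
    have hid : (2 * k + 1) * N = B * (2 * k ^ 3 + 13 * k ^ 2 + 28 * k + 19) + 2 := by
      rw [hB, hN]; ring
    have h2 : Nat.gcd N B ∣ 2 := by
      have h4 : Nat.gcd N B ∣ B * (2 * k ^ 3 + 13 * k ^ 2 + 28 * k + 19) + 2 := by
        rw [← hid]; exact Dvd.dvd.mul_left hd1 _
      exact (Nat.dvd_add_right (Dvd.dvd.mul_right hd2 _)).mp h4
    have hodd : B % 2 = 1 := by
      rw [hB]
      rcases Nat.even_or_odd k with ⟨j, rfl⟩ | ⟨j, rfl⟩ <;> ring_nf <;> omega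
    have h5 : Nat.gcd N B ≤ 2 := Nat.le_of_dvd (by norm_num) h2
    have h0 : Nat.gcd N B ≠ 0 := by
      intro h
      rw [h] at h2
      simp at h2
    have h22 : Nat.gcd N B ≠ 2 := by
      intro h
      rw [h] at hd2
      omega
    omega
  rw [he, zpow_neg, zpow_natCast, orderOf_inv, orderOf_pow' _ hBA0, hω, h6, h3, mul_comm B A,
    Nat.gcd_mul_left, hcop, mul_one, Nat.mul_div_cancel_left _ hA0, hN]

end Cfsg.Agent.Helper28
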