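import Mathlib
import Cfsg.Prelude.Def_GeometricClasses
import Cfsg.Prelude.Def_LieClassical
import Cfsg.Agent.Helper5.UnitSU
import Cfsg.Agent.Helper44.UnitaryOrder
set_option autoImplicit false

/-! # CALL S5999, piece CARDU: `81 ∤ |SU_3(p)|` for `p ≡ 2, 5 (mod 9)` -/

namespace Cfsg.Agent.Helper28

theorem e3ucard_zmod : ∀ x : ZMod 81, (x.val % 9 = 2 ∨ x.val % 9 = 5) →
    x ^ 3 * (x ^ 2 - 1) * (x ^ 3 + 1) ≠ 0 := by decide

theorem e3u_card_SU3 {F : Type*} [Field F] [Fintype F] {p : ℕ} (hF : Fintype.card F = p ^ 2)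
    (h : p % 9 = 2 ∨ p % 9 = 5) :
    ¬ 81 ∣ Nat.card ↥(Cfsg.GU 3 F p ⊓ Cfsg.Geo.specialLinear (Fin 3) F) := by
  have hker : (Cfsg.Agent.Helper5.detGU F p 3).ker =
      (Cfsg.GU 3 F p ⊓ Cfsg.Geo.specialLinear (Fin 3) F).subgroupOf (Cfsg.GU 3 F p) := by
    rw [Subgroup.inf_subgroupOf_left]
    rfl
  have hcard : Nat.card ↥(Cfsg.GU 3 F p ⊓ Cfsg.Geo.specialLinear (Fin 3) F) =
      Nat.card ↥(Cfsg.Agent.Helper5.detGU F p 3).ker := by
    rw [hker]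
    exact (Nat.card_congr (Subgroup.subgroupOfEquivOfLe inf_le_left).toEquiv).symm
  have hmul : Nat.card ↥(Cfsg.Agent.Helper5.detGU F p 3).ker * (p + 1) =
      Nat.card ↥(Cfsg.GU 3 F p) := by
    rw [← Subgroup.card_mul_index (Cfsg.Agent.Helper5.detGU F p 3).ker, Subgroup.index_ker,
      Cfsg.Agent.Helper5.range_detGU hF (by norm_num), Cfsg.Agent.Helper5.card_norm_one hF]
  have hGU := Cfsg.Agent.Helper44.card_GU (K := F) (q := p) hF 3
  rw [← hmul] at hGU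
  simp only [Fin.prod_univ_three] at hGU
  have hN : (Nat.card ↥(Cfsg.Agent.Helper5.detGU F p 3).ker : ℤ) =
      (p : ℤ) ^ 3 * ((p : ℤ) ^ 2 - 1) * ((p : ℤ) ^ 3 + 1) := by
    have hp1 : ((p : ℤ) + 1) ≠ 0 := by positivity
    apply mul_right_cancel₀ hp1
    push_cast at hGU
    rw [hGU]
    norm_num
    ring
  intro hdvd
  rw [hcard] at hdvd
  have h2 : ((Nat.card ↥(Cfsg.Agent.Helper5.detGU F p 3).ker : ℤ) : ZMod 81) = 0 := by
    rw [Int.cast_natCast]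
    exact (ZMod.natCast_eq_zero_iff _ 81).mpr hdvd
  rw [hN] at h2
  push_cast at h2
  refine e3ucard_zmod (p : ZMod 81) ?_ h2
  rw [ZMod.val_natCast, Nat.mod_mod_of_dvd p (by norm_num : 9 ∣ 81)]
  exact h

end Cfsg.Agent.Helper28
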