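import Mathlib
import Cfsg.Prelude.Def_SporCoxeter
import Cfsg.Agent.Helper28.TCC
import Cfsg.Agent.Helper28.GnD

/-!
# Todd–Coxeter certificates for Coxeter-style presentations with non-node generators (helper28)

A variant of `Cfsg.Agent.Helper28.TCC`: a generator that is not a node of the graph gets two
columns, one for the generator and one for its inverse.
-/

set_option autoImplicit false

namespace Cfsg.Agent.Helper28.Gn

theorem appProd_reverse {K : Type*} [Group K] (val : ℕ → K) (l : List ℕ) :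
    appProd val l.reverse = (l.map val).prod := by
  induction l with
  | nil => rfl
  | cons a l ih =>
    rw [List.reverse_cons, appProd_append, appProd_cons, appProd_nil, one_mul, ih, List.map_cons,
      List.prod_cons]

/-- permutation of `Fin n` read off the column `k` of a table, with inverse column `k'` -/
noncomputable def permOfTab2 (T : ℕ → ℕ → ℕ) (n k k' : ℕ) : Equiv.Perm (Fin n) :=
  open Classical in
  if h : (∀ i, i < n → T k i < n ∧ T k' (T k i) = i) ∧
      (∀ i, i < n → T k' i < n ∧ T k (T k' i) = i) then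
    { toFun := fun i => ⟨T k i, (h.1 i i.2).1⟩
      invFun := fun i => ⟨T k' i, (h.2 i i.2).1⟩
      left_inv := fun i => Fin.ext (h.1 i i.2).2
      right_inv := fun i => Fin.ext (h.2 i i.2).2 }
  else 1

theorem permOfTab2_apply (T : ℕ → ℕ → ℕ) (n k k' : ℕ)
    (h1 : ∀ i, i < n → T k i < n ∧ T k' (T k i) = i)
    (h2 : ∀ i, i < n → T k' i < n ∧ T k (T k' i) = i) (i : Fin n) :
    ((permOfTab2 T n k k' i : Fin n) : ℕ) = T k i := by
  unfold permOfTab2
  rw [dif_pos ⟨h1, h2⟩]; rfl

theorem permOfTab2_inv (T : ℕ → ℕ → ℕ) (n k k' : ℕ) :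
    (permOfTab2 T n k k')⁻¹ = permOfTab2 T n k' k := by
  classical
  by_cases h : (∀ i, i < n → T k i < n ∧ T k' (T k i) = i) ∧
      (∀ i, i < n → T k' i < n ∧ T k (T k' i) = i)
  · apply Equiv.ext
    intro i
    apply Fin.ext
    rw [permOfTab2_apply T n k' k h.2 h.1]
    unfold permOfTab2
    rw [dif_pos h]; rfl
  · have h' : ¬ ((∀ i, i < n → T k' i < n ∧ T k (T k' i) = i) ∧
        (∀ i, i < n → T k i < n ∧ T k' (T k i) = i)) := fun hh => h ⟨hh.2, hh.1⟩
    unfold permOfTab2
    rw [dif_neg h, dif_neg h', inv_one]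

theorem prod_permOfTab2_apply (T : ℕ → ℕ → ℕ) (n : ℕ) (iv : ℕ → ℕ) (l : List ℕ)
    (h : ∀ k ∈ l, (∀ i, i < n → T k i < n ∧ T (iv k) (T k i) = i) ∧
      (∀ i, i < n → T (iv k) i < n ∧ T k (T (iv k) i) = i)) (i : Fin n) :
    (((l.map (fun k => permOfTab2 T n k (iv k))).prod i : Fin n) : ℕ) = walkA T l i := by
  induction l with
  | nil => rfl
  | cons a l ih =>
    rw [List.map_cons, List.prod_cons, Equiv.Perm.mul_apply,
      permOfTab2_apply T n a (iv a) (h a List.mem_cons_self).1 (h a List.mem_cons_self).2,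
      walkA_cons, ih (fun k hk => h k (List.mem_cons_of_mem _ hk))]

theorem prod_permOfTab2_eq_one (T : ℕ → ℕ → ℕ) (n : ℕ) (iv : ℕ → ℕ) (l : List ℕ)
    (h : ∀ k ∈ l, (∀ i, i < n → T k i < n ∧ T (iv k) (T k i) = i) ∧
      (∀ i, i < n → T (iv k) i < n ∧ T k (T (iv k) i) = i))
    (hw : ∀ i, i < n → walkA T l i = i) :
    (l.map (fun k => permOfTab2 T n k (iv k))).prod = 1 := by
  apply Equiv.ext
  intro i
  apply Fin.ext
  rw [prod_permOfTab2_apply T n iv l h i, hw i i.2]; rfl

section Cox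

variable {α : Type} [DecidableEq α] (edges : List (α × ℕ × α)) (extra : List (FreeGroup α))

/-- the value of the column `k` under an assignment of the generators -/
def cval {K : Type*} [Group K] (gen : ℕ → α) (sgn : ℕ → Bool) (v : α → K) (k : ℕ) : K :=
  cond (sgn k) (v (gen k))⁻¹ (v (gen k))

/-- `l` spells the free group element `s` in every group in which the nodes are involutions -/
def WordOfG (gen : ℕ → α) (sgn : ℕ → Bool) (s : FreeGroup α) (l : List ℕ) : Prop :=
  ∀ (K : Type) [Group K] (v : α → K), (∀ x ∈ Cfsg.Spor.coxNodes edges, v x * v x = 1) →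
    FreeGroup.lift v s = (l.map (cval gen sgn v)).prod

/-- A complete certificate for the index of the subgroup generated by `S`. -/
structure GCert (S : Set (FreeGroup α)) (gen : ℕ → α) (sgn : ℕ → Bool) (code : α → ℕ)
    (D : TCData) (n : ℕ) (lv : ℕ → ℕ) (T : ℕ → ℕ → ℕ) (pairs : List (ℕ × ℕ × ℕ))
    (invL extraL subL : List (List ℕ)) : Prop where
  hD : D.rels = ((pairs.map (fun p => pairWord p.1 p.2.1 p.2.2) ++ invL) ++
    extraL.map List.reverse) ++ subL.map List.reverse
  hnrel : D.nrel = ((pairs.map (fun p => pairWord p.1 p.2.1 p.2.2) ++ invL) ++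
    extraL.map List.reverse).length
  hcode : ∀ x : α, code x < D.jc ∧ gen (code x) = x ∧ sgn (code x) = false
  hnodecol : ∀ x ∈ Cfsg.Spor.coxNodes edges, D.iv (code x) = code x
  hcol : ∀ k, k < D.jc → D.iv k < D.jc ∧ gen (D.iv k) = gen k ∧ D.iv (D.iv k) = k ∧
    ((sgn k = false ∧ code (gen k) = k ∧ gen k ∈ Cfsg.Spor.coxNodes edges ∧ D.iv k = k) ∨
     (sgn k = false ∧ code (gen k) = k ∧ sgn (D.iv k) = true) ∨
     (sgn k = true ∧ sgn (D.iv k) = false ∧ code (gen k) = D.iv k))
  hivjc : D.iv D.jc = D.jc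
  hpairs1 : ∀ p ∈ pairs, p.1 < D.jc ∧ p.2.1 < D.jc ∧ sgn p.1 = false ∧ sgn p.2.1 = false ∧
    gen p.1 ∈ Cfsg.Spor.coxNodes edges ∧ gen p.2.1 ∈ Cfsg.Spor.coxNodes edges ∧
    p.2.2 = Cfsg.Spor.coxLabel edges (gen p.1) (gen p.2.1)
  hpairs2 : ∀ x ∈ Cfsg.Spor.coxNodes edges, ∀ y ∈ Cfsg.Spor.coxNodes edges, ∃ p ∈ pairs,
    p.2.2 = Cfsg.Spor.coxLabel edges x y ∧
      ((p.1 = code x ∧ p.2.1 = code y) ∨ (p.1 = code y ∧ p.2.1 = code x))
  hinvL1 : ∀ l ∈ invL, ∃ k, k < D.jc ∧ l = [k, D.iv k]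
  hinvL2 : ∀ k, k < D.jc →
    [k, D.iv k] ∈ pairs.map (fun p => pairWord p.1 p.2.1 p.2.2) ++ invL
  hextra1 : ∀ l ∈ extraL, ∃ r ∈ extra, WordOfG edges gen sgn r l
  hextra2 : ∀ r ∈ extra, ∃ l ∈ extraL, WordOfG edges gen sgn r l
  hsub1 : ∀ l ∈ subL, ∃ s ∈ S, WordOfG edges gen sgn s l
  hsub2 : ∀ s ∈ S, ∃ l ∈ subL, WordOfG edges gen sgn s l
  hletE : ∀ l ∈ extraL, ∀ a ∈ l, a < D.jc
  hletS : ∀ l ∈ subL, ∀ a ∈ l, a < D.jc
  hN : ∀ c, c ≤ D.jc → D.om (D.E c D.N) = 0
  hchk : ∀ a, a < D.jc → ∀ x, x < D.N → chkG D a x = true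
  hchkJ : ∀ x, x < D.N → chkJ D x = true
  hfin : FinSem D n lv T
  hn : 0 < n
  hTrel : ∀ l ∈ (pairs.map (fun p => pairWord p.1 p.2.1 p.2.2) ++ invL) ++ extraL,
    ∀ i, i < n → walkA T l i = i
  hTsub : ∀ l ∈ subL, walkA T l 0 = 0

/-- the value of the column `k` -/
noncomputable def coxVal (gen : ℕ → α) (sgn : ℕ → Bool) (jc : ℕ) (k : ℕ) :
    Cfsg.Spor.CoxPresented α edges extra :=
  if k < jc then cval gen sgn (fun x => (PresentedGroup.of x : Cfsg.Spor.CoxPresented α edges extra)) k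
  else 1

variable {edges extra}
variable {S : Set (FreeGroup α)} {gen : ℕ → α} {sgn : ℕ → Bool} {code : α → ℕ} {D : TCData} {n : ℕ}
  {lv : ℕ → ℕ} {T : ℕ → ℕ → ℕ} {pairs : List (ℕ × ℕ × ℕ)} {invL extraL subL : List (List ℕ)}
  (C : GCert edges extra S gen sgn code D n lv T pairs invL extraL subL)
include C

theorem GCert.tabOK (k : ℕ) (hk : k < D.jc) :
    (∀ i, i < n → T k i < n ∧ T (D.iv k) (T k i) = i) ∧
      (∀ i, i < n → T (D.iv k) i < n ∧ T k (T (D.iv k) i) = i) := by
  obtain ⟨hiv, _, hivv, _⟩ := C.hcol k hk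
  have h1 : ∀ i, i < n → T k (T (D.iv k) i) = i := by
    intro i hi
    have hm := C.hinvL2 k hk
    have := C.hTrel _ (List.mem_append_left _ hm) i hi
    exact this
  have h2 : ∀ i, i < n → T (D.iv k) (T k i) = i := by
    intro i hi
    have hm := C.hinvL2 (D.iv k) hiv
    rw [hivv] at hm
    have := C.hTrel _ (List.mem_append_left _ hm) i hi
    exact this
  exact ⟨fun i hi => ⟨C.hfin.hT k hk i hi, h2 i hi⟩, fun i hi => ⟨C.hfin.hT _ hiv i hi, h1 i hi⟩⟩

theorem GCert.valNode (a : ℕ) (ha : a < D.jc) (hs : sgn a = false) :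
    coxVal edges extra gen sgn D.jc a = PresentedGroup.of (gen a) := by
  unfold coxVal cval
  rw [if_pos ha, hs]; rfl

theorem GCert.valInv (a : ℕ) (ha : a ≤ D.jc) :
    coxVal edges extra gen sgn D.jc (D.iv a) * coxVal edges extra gen sgn D.jc a = 1 := by
  by_cases h : a < D.jc
  · obtain ⟨hiv, hg, _, hc⟩ := C.hcol a h
    unfold coxVal cval
    rw [if_pos h, if_pos hiv, hg]
    rcases hc with ⟨h1, _, h3, h4⟩ | ⟨h1, _, h3⟩ | ⟨h1, h2, _⟩
    · rw [h4, h1]
      exact cox_sq edges extra _ h3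
    · rw [h1, h3]
      exact inv_mul_cancel _
    · rw [h1, h2]
      exact mul_inv_cancel _
  · have : a = D.jc := le_antisymm ha (not_lt.mp h)
    subst this
    unfold coxVal
    rw [C.hivjc, if_neg (lt_irrefl _), mul_one]

theorem GCert.mapVal (l : List ℕ) (hl : ∀ a ∈ l, a < D.jc) :
    l.map (coxVal edges extra gen sgn D.jc) =
      l.map (cval gen sgn
        (fun x => (PresentedGroup.of x : Cfsg.Spor.CoxPresented α edges extra))) := by
  apply List.map_congr_left
  intro a ha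
  unfold coxVal
  rw [if_pos (hl a ha)]

theorem GCert.wordVal (s : FreeGroup α) (l : List ℕ) (hw : WordOfG edges gen sgn s l)
    (hl : ∀ a ∈ l, a < D.jc) :
    (l.map (coxVal edges extra gen sgn D.jc)).prod =
      PresentedGroup.mk (Cfsg.Spor.coxRelators edges ∪ {r | r ∈ extra}) s := by
  rw [C.mapVal l hl]
  have h1 := hw (Cfsg.Spor.CoxPresented α edges extra)
    (fun x => (PresentedGroup.of x : Cfsg.Spor.CoxPresented α edges extra))
    (fun x hx => cox_sq edges extra x hx)
  rw [← h1]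
  have h2 : FreeGroup.lift (fun x => (PresentedGroup.of x : Cfsg.Spor.CoxPresented α edges extra)) =
      PresentedGroup.mk (Cfsg.Spor.coxRelators edges ∪ {r | r ∈ extra}) := by
    apply FreeGroup.ext_hom
    intro a
    rw [FreeGroup.lift_apply_of]; rfl
  rw [h2]

theorem GCert.pairLetters (p : ℕ × ℕ × ℕ) (hp : p ∈ pairs) :
    ∀ a ∈ pairWord p.1 p.2.1 p.2.2, a < D.jc ∧ sgn a = false ∧
      gen a ∈ Cfsg.Spor.coxNodes edges := by
  obtain ⟨h1, h2, h3, h4, h5, h6, _⟩ := C.hpairs1 p hp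
  intro a ha
  rcases mem_pairWord ha with e | e
  · rw [e]; exact ⟨h1, h3, h5⟩
  · rw [e]; exact ⟨h2, h4, h6⟩

theorem GCert.invLetters (l : List ℕ) (hl : l ∈ invL) : ∀ a ∈ l, a < D.jc := by
  obtain ⟨k, hk, rfl⟩ := C.hinvL1 l hl
  intro a ha
  rw [List.mem_cons, List.mem_singleton] at ha
  rcases ha with e | e
  · rw [e]; exact hk
  · rw [e]; exact (C.hcol k hk).1

/-- the letters of the words checked on the final table -/
theorem GCert.relLetters (l : List ℕ)
    (hl : l ∈ (pairs.map (fun p => pairWord p.1 p.2.1 p.2.2) ++ invL) ++ extraL) :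
    ∀ a ∈ l, a < D.jc := by
  rcases List.mem_append.mp hl with h | h
  · rcases List.mem_append.mp h with h' | h'
    · obtain ⟨p, hp, rfl⟩ := List.mem_map.mp h'
      exact fun a ha => (C.pairLetters p hp a ha).1
    · exact C.invLetters l h'
  · exact C.hletE l h

/-- the relator words of the enumeration have trivial product (in application order) -/
theorem GCert.relVal (l : List ℕ)
    (hl : l ∈ (pairs.map (fun p => pairWord p.1 p.2.1 p.2.2) ++ invL) ++
      extraL.map List.reverse) :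
    appProd (coxVal edges extra gen sgn D.jc) l = 1 ∧ ∀ a ∈ l, a < D.jc := by
  rcases List.mem_append.mp hl with h | h
  · rcases List.mem_append.mp h with h' | h'
    · obtain ⟨p, hp, rfl⟩ := List.mem_map.mp h'
      refine ⟨?_, fun a ha => (C.pairLetters p hp a ha).1⟩
      obtain ⟨h1, h2, h3, h4, h5, h6, h7⟩ := C.hpairs1 p hp
      rw [appProd_eq_inv_prod _ _ (fun a ha => by
        obtain ⟨g1, g2, g3⟩ := C.pairLetters p hp a ha
        rw [C.valNode a g1 g2]
        exact cox_sq edges extra _ g3), pairWord_prod, h7, C.valNode _ h1 h3, C.valNode _ h2 h4,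
        cox_pair edges extra _ _ h5 h6, inv_one]
    · refine ⟨?_, C.invLetters l h'⟩
      obtain ⟨k, hk, rfl⟩ := C.hinvL1 l h'
      rw [appProd_cons, appProd_cons, appProd_nil, one_mul]
      exact C.valInv k (le_of_lt hk)
  · obtain ⟨l0, hl0, rfl⟩ := List.mem_map.mp h
    refine ⟨?_, fun a ha => C.hletE l0 hl0 a (List.mem_reverse.mp ha)⟩
    obtain ⟨r, hr, hw⟩ := C.hextra1 l0 hl0
    rw [appProd_reverse, C.wordVal r l0 hw (C.hletE l0 hl0)]
    exact PresentedGroup.one_of_mem (Or.inr hr)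

theorem GCert.sem :
    TCSem ((Subgroup.closure S).map (PresentedGroup.mk (Cfsg.Spor.coxRelators edges ∪ {r | r ∈ extra})))
      D (coxVal edges extra gen sgn D.jc) where
  hJ := by unfold coxVal; rw [if_neg (lt_irrefl _)]
  hinv := C.valInv
  hiv := by
    intro a ha
    by_cases h : a < D.jc
    · exact le_of_lt (C.hcol a h).1
    · have : a = D.jc := le_antisymm ha (not_lt.mp h)
      rw [this, C.hivjc]
  hivlt := fun a ha => (C.hcol a ha).1
  hlet := by
    intro ρ a ha
    rcases nthL_mem_or D.rels ρ with h | h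
    · rw [h] at ha; exact absurd ha (by simp)
    · rw [C.hD] at h ha
      rcases List.mem_append.mp h with h1 | h1
      · exact le_of_lt ((C.relVal _ h1).2 a ha)
      · obtain ⟨l0, hl0, e⟩ := List.mem_map.mp h1
        rw [← e] at ha
        exact le_of_lt (C.hletS l0 hl0 a (List.mem_reverse.mp ha))
  hrel := by
    intro ρ hρ
    rw [C.hnrel] at hρ
    have hm : nthL D.rels ρ ∈ (pairs.map (fun p => pairWord p.1 p.2.1 p.2.2) ++ invL) ++
        extraL.map List.reverse := by
      rw [C.hD, nthL_append_left _ _ _ hρ]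
      exact nthL_lt_mem _ _ hρ
    exact (C.relVal _ hm).1
  hsub := by
    intro ρ hρ
    rw [C.hnrel] at hρ
    rw [C.hD, nthL_append_right _ _ _ hρ]
    rcases nthL_mem_or (subL.map List.reverse)
      (ρ - ((pairs.map (fun p => pairWord p.1 p.2.1 p.2.2) ++ invL) ++
        extraL.map List.reverse).length) with h | h
    · rw [h, appProd_nil]; exact Subgroup.one_mem _
    · obtain ⟨l0, hl0, e⟩ := List.mem_map.mp h
      obtain ⟨s, hs, hw⟩ := C.hsub1 l0 hl0
      rw [← e, appProd_reverse, C.wordVal s l0 hw (C.hletS l0 hl0)]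
      exact Subgroup.mem_map_of_mem _ (Subgroup.subset_closure hs)
  hN := C.hN
  hchk := C.hchk
  hchkJ := C.hchkJ

theorem GCert.gens :
    Subgroup.closure (coxVal edges extra gen sgn D.jc '' {k | k < D.jc}) = ⊤ := by
  rw [eq_top_iff, ← PresentedGroup.closure_range_of]
  apply Subgroup.closure_mono
  rintro _ ⟨x, rfl⟩
  obtain ⟨h1, h2, h3⟩ := C.hcode x
  refine ⟨code x, h1, ?_⟩
  rw [C.valNode _ h1 h3, h2]

/-- the images of the generators in the symmetric group -/
noncomputable def coxPermGen (code : α → ℕ) (iv : ℕ → ℕ) (n : ℕ) (T : ℕ → ℕ → ℕ) (x : α) :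
    Equiv.Perm (Fin n) :=
  permOfTab2 T n (code x) (iv (code x))

theorem GCert.permCol (k : ℕ) (hk : k < D.jc) :
    cval gen sgn (coxPermGen code D.iv n T) k = permOfTab2 T n k (D.iv k) := by
  obtain ⟨_, _, hivv, hc⟩ := C.hcol k hk
  unfold cval coxPermGen
  rcases hc with ⟨h1, h2, _, _⟩ | ⟨h1, h2, _⟩ | ⟨h1, _, h3⟩
  · rw [h1, h2]; rfl
  · rw [h1, h2]; rfl
  · rw [h1, h3, hivv]
    exact permOfTab2_inv T n (D.iv k) k

theorem GCert.permWord (s : FreeGroup α) (l : List ℕ) (hw : WordOfG edges gen sgn s l)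
    (hl : ∀ a ∈ l, a < D.jc) :
    FreeGroup.lift (coxPermGen code D.iv n T) s =
      (l.map (fun k => permOfTab2 T n k (D.iv k))).prod := by
  have hsq : ∀ x ∈ Cfsg.Spor.coxNodes edges,
      coxPermGen code D.iv n T x * coxPermGen code D.iv n T x = 1 := by
    intro x hx
    have hc := (C.hcode x).1
    have hivx := C.hnodecol x hx
    have h1 := prod_permOfTab2_eq_one T n D.iv [code x, code x]
      (fun k hk => by
        have : k = code x := by simpa using hk
        rw [this]; exact C.tabOK _ hc)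
      (fun i hi => by
        have := ((C.tabOK _ hc).1 i hi).2
        rw [hivx] at this
        exact this)
    simpa [coxPermGen, hivx] using h1
  rw [hw (Equiv.Perm (Fin n)) (coxPermGen code D.iv n T) hsq]
  congr 1
  apply List.map_congr_left
  intro a ha
  exact C.permCol a (hl a ha)

theorem GCert.permRel : ∀ r ∈ Cfsg.Spor.coxRelators edges ∪ {r | r ∈ extra},
    FreeGroup.lift (coxPermGen code D.iv n T) r = 1 := by
  intro r hr
  rcases hr with ⟨x, hx, y, hy, rfl⟩ | hr
  · rw [map_pow, map_mul, FreeGroup.lift_apply_of, FreeGroup.lift_apply_of]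
    obtain ⟨p, hp, hlab, hor⟩ := C.hpairs2 x hx y hy
    have hm : pairWord p.1 p.2.1 p.2.2 ∈
        (pairs.map (fun p => pairWord p.1 p.2.1 p.2.2) ++ invL) ++ extraL :=
      List.mem_append_left _ (List.mem_append_left _ (List.mem_map_of_mem hp))
    have h1 := prod_permOfTab2_eq_one T n D.iv _
      (fun k hk => C.tabOK k (C.relLetters _ hm k hk)) (C.hTrel _ hm)
    rw [pairWord_prod, hlab] at h1
    unfold coxPermGen
    rcases hor with ⟨e1, e2⟩ | ⟨e1, e2⟩
    · rw [e1, e2] at h1; exact h1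
    · rw [e1, e2] at h1; exact pow_swap_eq_one _ _ _ h1
  · obtain ⟨l, hl, hw⟩ := C.hextra2 r hr
    have hm : l ∈ (pairs.map (fun p => pairWord p.1 p.2.1 p.2.2) ++ invL) ++ extraL :=
      List.mem_append_right _ hl
    rw [C.permWord r l hw (C.hletE l hl)]
    exact prod_permOfTab2_eq_one T n D.iv _ (fun k hk => C.tabOK k (C.hletE l hl k hk))
      (C.hTrel _ hm)

/-- the permutation representation on the final table -/
noncomputable def GCert.perm : Cfsg.Spor.CoxPresented α edges extra →* Equiv.Perm (Fin n) :=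
  PresentedGroup.toGroup C.permRel

theorem GCert.perm_mk (s : FreeGroup α) :
    C.perm (PresentedGroup.mk (Cfsg.Spor.coxRelators edges ∪ {r | r ∈ extra}) s) =
      FreeGroup.lift (coxPermGen code D.iv n T) s := rfl

theorem GCert.perm_word (s : FreeGroup α) (l : List ℕ) (hw : WordOfG edges gen sgn s l)
    (hl : ∀ a ∈ l, a < D.jc) (i : Fin n) :
    ((C.perm (PresentedGroup.mk (Cfsg.Spor.coxRelators edges ∪ {r | r ∈ extra}) s) i : Fin n) : ℕ) =
      walkA T l i := by
  rw [C.perm_mk, C.permWord s l hw hl,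
    prod_permOfTab2_apply T n D.iv l (fun k hk => C.tabOK k (hl k hk)) i]

theorem GCert.perm_val (k : ℕ) (hk : k < D.jc) (i : Fin n) :
    ((C.perm (coxVal edges extra gen sgn D.jc k) i : Fin n) : ℕ) = T k i := by
  have h1 : C.perm (coxVal edges extra gen sgn D.jc k) =
      cval gen sgn (coxPermGen code D.iv n T) k := by
    unfold coxVal cval
    rw [if_pos hk]
    have h2 : ∀ x : α, C.perm (PresentedGroup.of x) = coxPermGen code D.iv n T x :=
      fun x => PresentedGroup.toGroup.of C.permRel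
    cases sgn k with
    | false => exact h2 _
    | true =>
      show C.perm ((PresentedGroup.of (gen k))⁻¹) = (coxPermGen code D.iv n T (gen k))⁻¹
      rw [map_inv, h2]
  rw [h1, C.permCol k hk, permOfTab2_apply T n k (D.iv k) (C.tabOK k hk).1 (C.tabOK k hk).2]

theorem GCert.perm_stab : ∀ h ∈ (Subgroup.closure S).map
      (PresentedGroup.mk (Cfsg.Spor.coxRelators edges ∪ {r | r ∈ extra})),
    C.perm h ⟨0, C.hn⟩ = ⟨0, C.hn⟩ := by
  rintro _ ⟨w, hw, rfl⟩
  induction hw using Subgroup.closure_induction with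
  | mem s hs =>
    obtain ⟨l, hl, hwd⟩ := C.hsub2 s hs
    apply Fin.ext
    rw [C.perm_word s l hwd (C.hletS l hl)]
    exact C.hTsub l hl
  | one => rw [map_one, map_one]; rfl
  | mul x y _ _ ihx ihy => rw [map_mul, map_mul, Equiv.Perm.mul_apply, ihy, ihx]
  | inv x _ ih =>
    rw [map_inv, map_inv, Equiv.Perm.inv_eq_iff_eq, ih]

/-- The cosets are in equivariant bijection with `Fin n`. -/
theorem GCert.exists_equiv :
    ∃ e : (Cfsg.Spor.CoxPresented α edges extra) ⧸ ((Subgroup.closure S).map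
        (PresentedGroup.mk (Cfsg.Spor.coxRelators edges ∪ {r | r ∈ extra}))) ≃ Fin n,
      (∀ (x : Cfsg.Spor.CoxPresented α edges extra) q, e (x • q) = C.perm x (e q)) ∧
        e (QuotientGroup.mk 1) = ⟨0, C.hn⟩ :=
  Cfsg.Agent.Helper28.Gn.exists_equiv C.sem C.hfin C.hn C.gens C.perm C.perm_val C.perm_stab

/-- The index of the subgroup generated by `S`. -/
theorem GCert.index_eq :
    ((Subgroup.closure S).map
      (PresentedGroup.mk (Cfsg.Spor.coxRelators edges ∪ {r | r ∈ extra}))).index = n :=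
  Cfsg.Agent.Helper28.Gn.index_eq C.sem C.hfin C.hn C.gens C.perm C.perm_val C.perm_stab

end Cox

end Cfsg.Agent.Helper28.Gn
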