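import Mathlib
import Cfsg.Agent.Helper28.GnD

/-!
# Todd–Coxeter certificates with inverse columns: packed data with inlined lookups (helper28)

Same layout as `Gn.mkData`, except that the lookups are written with recursors only (no auxiliary
definition is unfolded during a lookup) and that the justifications carry the relator (7 bits), the
rotation (8 bits) and the gap position.
-/

set_option autoImplicit false

namespace Cfsg.Agent.Helper28.Gn

/-- certificate data from packed columns, lookups inlined -/
noncomputable def mkData8 (sk mk bt mt B mB BJ mBJ BT mBT : ℕ) (cols jcols : List (List ℕ))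
    (tcol : List ℕ) (rels : List (List ℕ)) (nrel jc N W fuel : ℕ) (ivl : List ℕ) : TCData where
  E := fun c u => Nat.land (Nat.shiftRight
      (List.rec (motive := fun _ => ℕ → ℕ) (fun _ => 0)
        (fun a _ ih j => Nat.rec (motive := fun _ => ℕ) a (fun j' _ => ih j') j)
        (List.rec (motive := fun _ => ℕ → List ℕ) (fun _ => [])
          (fun a _ ih j => Nat.rec (motive := fun _ => List ℕ) a (fun j' _ => ih j') j) cols c)
        (Nat.shiftRight u sk))
      (Nat.mul (Nat.land u mk) B)) mB
  tg := fun e => Nat.land e mt
  om := fun e => Nat.shiftRight e bt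
  J := fun c u => Nat.land (Nat.shiftRight
      (List.rec (motive := fun _ => ℕ → ℕ) (fun _ => 0)
        (fun a _ ih j => Nat.rec (motive := fun _ => ℕ) a (fun j' _ => ih j') j)
        (List.rec (motive := fun _ => ℕ → List ℕ) (fun _ => [])
          (fun a _ ih j => Nat.rec (motive := fun _ => List ℕ) a (fun j' _ => ih j') j) jcols c)
        (Nat.shiftRight u sk))
      (Nat.mul (Nat.land u mk) BJ)) mBJ
  jk := fun j => Nat.land j 1
  jf := fun j => Nat.land (Nat.shiftRight j 1) 1
  js := fun j => Nat.land (Nat.shiftRight j 2) mt
  jr := fun j => Nat.land (Nat.shiftRight j (Nat.add bt 2)) 127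
  jo := fun j => Nat.land (Nat.shiftRight j (Nat.add bt 9)) 255
  jg := fun j => Nat.shiftRight j (Nat.add bt 17)
  tE := fun c => Nat.land (Nat.shiftRight
      (List.rec (motive := fun _ => ℕ → ℕ) (fun _ => 0)
        (fun a _ ih j => Nat.rec (motive := fun _ => ℕ) a (fun j' _ => ih j') j) tcol
        (Nat.shiftRight c sk))
      (Nat.mul (Nat.land c mk) BT)) mBT
  th := fun e => Nat.shiftRight e (Nat.add bt 4)
  tp := fun e => Nat.land e mt
  tc := fun e => Nat.land (Nat.shiftRight e bt) 15
  rels := rels
  nrel := nrel
  jc := jc
  N := N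
  W := W
  fuel := fuel
  iv := fun a => nthN ivl a

end Cfsg.Agent.Helper28.Gn
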