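import Mathlib
import Cfsg.Agent.Helper28.TCK

/-!
# Todd–Coxeter certificates with inverse columns: kernel checker and its soundness (helper28)

A variant of `Cfsg.Agent.Helper28.TCK` in which every column `a` has an inverse column `iv a`
(`val (iv a) * val a = 1`); backward walks use the inverse columns.  The list primitives and
`appProd` are those of `TCK`.
-/

set_option autoImplicit false

namespace Cfsg.Agent.Helper28.Gn

/-! ### certificate data and the checker -/

/-- Data of a Todd–Coxeter certificate; all table lookups are abstract functions. -/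
structure TCData where
  /-- entry of column `c` at name `u` -/
  E : ℕ → ℕ → ℕ
  /-- target of an entry -/
  tg : ℕ → ℕ
  /-- weight of an entry (`0`: undefined) -/
  om : ℕ → ℕ
  /-- justification of the entry of column `c` at name `u` -/
  J : ℕ → ℕ → ℕ
  /-- kind of a justification: `0` definition, else scan -/
  jk : ℕ → ℕ
  /-- start name of a scan -/
  js : ℕ → ℕ
  /-- relator index of a scan -/
  jr : ℕ → ℕ
  /-- rotation of a scan -/
  jo : ℕ → ℕ
  /-- number of forward letters of a scan -/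
  jg : ℕ → ℕ
  /-- nonzero: the backward walk starts at the representative of the start name -/
  jf : ℕ → ℕ
  /-- tree entry of a name -/
  tE : ℕ → ℕ
  /-- `1` iff the name has a parent -/
  th : ℕ → ℕ
  /-- parent of a name -/
  tp : ℕ → ℕ
  /-- column of the tree edge -/
  tc : ℕ → ℕ
  /-- relator words, followed by the subgroup words -/
  rels : List (List ℕ)
  /-- number of relator words -/
  nrel : ℕ
  /-- index of the coincidence column; generator columns are `0 .. jc - 1` -/
  jc : ℕ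
  /-- number of names -/
  N : ℕ
  /-- bound for the weights -/
  W : ℕ
  /-- fuel for the coincidence chains -/
  fuel : ℕ
  /-- the inverse column of a column -/
  iv : ℕ → ℕ

/-- One step with column `c` from the name `u`, using entries of weight `> w0` only; falls back to the
coincidence column when the entry is not available.  Returns `D.N` on failure. -/
noncomputable def lazyStepF (D : TCData) (w0 c : ℕ) (fuel : ℕ) : ℕ → ℕ :=
  Nat.rec (motive := fun _ => ℕ → ℕ) (fun _ => D.N)
    (fun _ ih u =>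
      cond (Nat.blt w0 (D.om (D.E c u))) (D.tg (D.E c u))
        (cond (Nat.blt w0 (D.om (D.E D.jc u))) (ih (D.tg (D.E D.jc u))) D.N))
    fuel

theorem lazyStepF_zero (D : TCData) (w0 c u : ℕ) : lazyStepF D w0 c 0 u = D.N := rfl

theorem lazyStepF_succ (D : TCData) (w0 c f u : ℕ) : lazyStepF D w0 c (f + 1) u =
    cond (Nat.blt w0 (D.om (D.E c u))) (D.tg (D.E c u))
      (cond (Nat.blt w0 (D.om (D.E D.jc u))) (lazyStepF D w0 c f (D.tg (D.E D.jc u))) D.N) := rfl

/-- Follow the coincidence column as long as it is available. -/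
noncomputable def endJF (D : TCData) (w0 : ℕ) (fuel : ℕ) : ℕ → ℕ :=
  Nat.rec (motive := fun _ => ℕ → ℕ) (fun u => u)
    (fun _ ih u => cond (Nat.blt w0 (D.om (D.E D.jc u))) (ih (D.tg (D.E D.jc u))) u)
    fuel

theorem endJF_zero (D : TCData) (w0 u : ℕ) : endJF D w0 0 u = u := rfl

theorem endJF_succ (D : TCData) (w0 f u : ℕ) : endJF D w0 (f + 1) u =
    cond (Nat.blt w0 (D.om (D.E D.jc u))) (endJF D w0 f (D.tg (D.E D.jc u))) u := rfl

/-- forward walk: the first letter acts first -/
noncomputable def walkF (D : TCData) (w0 : ℕ) (l : List ℕ) : ℕ → ℕ :=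
  List.rec (motive := fun _ => ℕ → ℕ) (fun u => u) (fun a _ ih u => ih (lazyStepF D w0 a D.fuel u)) l

theorem walkF_nil (D : TCData) (w0 u : ℕ) : walkF D w0 [] u = u := rfl
theorem walkF_cons (D : TCData) (w0 a : ℕ) (l : List ℕ) (u : ℕ) :
    walkF D w0 (a :: l) u = walkF D w0 l (lazyStepF D w0 a D.fuel u) := rfl

/-- backward walk: the last letter acts first -/
noncomputable def walkB (D : TCData) (w0 : ℕ) (l : List ℕ) (u : ℕ) : ℕ :=
  List.rec (motive := fun _ => ℕ) u (fun a _ ih => lazyStepF D w0 (D.iv a) D.fuel ih) l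

theorem walkB_nil (D : TCData) (w0 u : ℕ) : walkB D w0 [] u = u := rfl
theorem walkB_cons (D : TCData) (w0 a : ℕ) (l : List ℕ) (u : ℕ) :
    walkB D w0 (a :: l) u = lazyStepF D w0 (D.iv a) D.fuel (walkB D w0 l u) := rfl

/-- side condition of a scan justification: the start is a name; subgroup words are scanned at `0`, unrotated -/
noncomputable def sideOK (D : TCData) (j : ℕ) : Bool :=
  and (Nat.blt (D.js j) D.N)
    (cond (Nat.blt (D.jr j) D.nrel) true (and (Nat.beq (D.js j) 0) (Nat.beq (D.jo j) 0)))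

/-- the rotated word of a scan justification -/
noncomputable def scanL (D : TCData) (j : ℕ) : List ℕ := rotN (nthL D.rels (D.jr j)) (D.jo j)

/-- start of the backward walk -/
noncomputable def bstart (D : TCData) (w0 j : ℕ) : ℕ :=
  cond (Nat.beq (D.jf j) 0) (D.js j) (endJF D w0 D.fuel (D.js j))

/-- the scan part of the check of a generator entry -/
noncomputable def chkScanG (D : TCData) (a x y0 w0 j : ℕ) : Bool :=
  and (sideOK D j)
    (and (Nat.beq (endJF D w0 D.fuel (walkF D w0 (takeN (scanL D j) (D.jg j)) (D.js j))) x)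
      (gapChk a (fun Bs => Nat.beq (endJF D w0 D.fuel (walkB D w0 Bs (bstart D w0 j))) y0)
        (dropN (scanL D j) (D.jg j))))

/-- the definition part of the check of a generator entry -/
noncomputable def chkDef (D : TCData) (a x y0 : ℕ) : Bool :=
  and (Nat.beq (D.th (D.tE y0)) 1)
    (and (Nat.beq (D.tp (D.tE y0)) x) (and (Nat.beq (D.tc (D.tE y0)) a) (Nat.blt x y0)))

/-- check of the entry of the generator column `a` at the name `x`, given the entry `e` and its justification -/
noncomputable def chkGe (D : TCData) (a x e j : ℕ) : Bool :=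
  cond (Nat.beq (D.om e) 0) true
    (and (Nat.blt (D.tg e) D.N) (and (Nat.ble (D.om e) D.W)
      (cond (Nat.beq (D.jk j) 0) (chkDef D a x (D.tg e)) (chkScanG D a x (D.tg e) (D.om e) j))))

/-- check of the entry of the generator column `a` at the name `x` -/
noncomputable def chkG (D : TCData) (a x : ℕ) : Bool := chkGe D a x (D.E a x) (D.J a x)

/-- the scan part of the check of a coincidence entry -/
noncomputable def chkScanJ (D : TCData) (x y0 w0 j : ℕ) : Bool :=
  and (sideOK D j)
    (or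
      (and (Nat.beq (endJF D w0 D.fuel (walkF D w0 (takeN (scanL D j) (D.jg j)) (D.js j))) x)
        (Nat.beq (endJF D w0 D.fuel (walkB D w0 (dropN (scanL D j) (D.jg j)) (bstart D w0 j))) y0))
      (and (Nat.beq (endJF D w0 D.fuel (walkF D w0 (takeN (scanL D j) (D.jg j)) (D.js j))) y0)
        (Nat.beq (endJF D w0 D.fuel (walkB D w0 (dropN (scanL D j) (D.jg j)) (bstart D w0 j))) x)))

/-- check of the coincidence entry at the name `x`, given the entry and its justification -/
noncomputable def chkJe (D : TCData) (x e j : ℕ) : Bool :=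
  cond (Nat.beq (D.om e) 0) true
    (and (Nat.blt (D.tg e) D.N) (and (Nat.ble (D.om e) D.W) (chkScanJ D x (D.tg e) (D.om e) j)))

/-- check of the coincidence entry at the name `x` -/
noncomputable def chkJ (D : TCData) (x : ℕ) : Bool := chkJe D x (D.E D.jc x) (D.J D.jc x)

/-! ### semantics -/

section Sem

variable {G : Type*} [Group G]

/-- The representative of a name, read off the tree. -/
noncomputable def uOf (val : ℕ → G) (D : TCData) (c : ℕ) : G :=
  if h : D.th (D.tE c) = 1 ∧ D.tp (D.tE c) < c then val (D.tc (D.tE c)) * uOf val D (D.tp (D.tE c)) else 1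
termination_by c
decreasing_by exact h.2

theorem uOf_zero (val : ℕ → G) (D : TCData) : uOf val D 0 = 1 := by
  rw [uOf]; simp

theorem uOf_step (val : ℕ → G) (D : TCData) (c : ℕ) (h1 : D.th (D.tE c) = 1) (h2 : D.tp (D.tE c) < c) :
    uOf val D c = val (D.tc (D.tE c)) * uOf val D (D.tp (D.tE c)) := by
  rw [uOf]; simp [h1, h2]

variable (H : Subgroup G)

/-- The coset of a name. -/
noncomputable def cosetOf (val : ℕ → G) (D : TCData) (x : ℕ) : G ⧸ H := QuotientGroup.mk (uOf val D x)

/-- The hypotheses under which a certificate is sound. -/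
structure TCSem (D : TCData) (val : ℕ → G) : Prop where
  hJ : val D.jc = 1
  hinv : ∀ a, a ≤ D.jc → val (D.iv a) * val a = 1
  hiv : ∀ a, a ≤ D.jc → D.iv a ≤ D.jc
  hivlt : ∀ a, a < D.jc → D.iv a < D.jc
  hlet : ∀ ρ, ∀ a ∈ nthL D.rels ρ, a ≤ D.jc
  hrel : ∀ ρ, ρ < D.nrel → appProd val (nthL D.rels ρ) = 1
  hsub : ∀ ρ, D.nrel ≤ ρ → appProd val (nthL D.rels ρ) ∈ H
  hN : ∀ c, c ≤ D.jc → D.om (D.E c D.N) = 0
  hchk : ∀ a, a < D.jc → ∀ x, x < D.N → chkG D a x = true
  hchkJ : ∀ x, x < D.N → chkJ D x = true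

/-- the entry of column `a` at `x` is a true fact whose target is a name -/
def GoodAt (D : TCData) (val : ℕ → G) (a x : ℕ) : Prop :=
  D.tg (D.E a x) < D.N ∧ val a • cosetOf H val D x = cosetOf H val D (D.tg (D.E a x))

section Walks

variable {H} {D : TCData} {val : ℕ → G} (S : TCSem H D val) (w0 : ℕ)
  (IH : ∀ a, a ≤ D.jc → ∀ x, x < D.N → w0 < D.om (D.E a x) → GoodAt H D val a x)
include S IH

theorem lazyStepF_N (c : ℕ) (hc : c ≤ D.jc) (f : ℕ) : lazyStepF D w0 c f D.N = D.N := by
  cases f with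
  | zero => rfl
  | succ f =>
    rw [lazyStepF_succ, S.hN c hc, S.hN D.jc le_rfl]
    have : Nat.blt w0 0 = false := by
      cases h : Nat.blt w0 0 with
      | false => rfl
      | true => exact absurd (Nat.blt_eq.mp h) (Nat.not_lt_zero _)
    rw [this]; rfl

theorem lazyStepF_lt (c : ℕ) (hc : c ≤ D.jc) (f : ℕ) : ∀ u, u < D.N →
    lazyStepF D w0 c f u ≤ D.N ∧
      (lazyStepF D w0 c f u < D.N → cosetOf H val D (lazyStepF D w0 c f u) = val c • cosetOf H val D u) := by
  induction f with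
  | zero => intro u _; rw [lazyStepF_zero]; exact ⟨le_rfl, fun h => absurd h (lt_irrefl _)⟩
  | succ f ih =>
    intro u hu
    rw [lazyStepF_succ]
    cases h1 : Nat.blt w0 (D.om (D.E c u)) with
    | true =>
      obtain ⟨g1, g2⟩ := IH c hc u hu (Nat.blt_eq.mp h1)
      exact ⟨le_of_lt g1, fun _ => g2.symm⟩
    | false =>
      cases h2 : Nat.blt w0 (D.om (D.E D.jc u)) with
      | true =>
        obtain ⟨g1, g2⟩ := IH D.jc le_rfl u hu (Nat.blt_eq.mp h2)
        rw [S.hJ, one_smul] at g2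
        obtain ⟨k1, k2⟩ := ih _ g1
        refine ⟨k1, fun h => ?_⟩
        have := k2 h
        rw [← g2] at this
        exact this
      | false => exact ⟨le_rfl, fun h => absurd h (lt_irrefl _)⟩

theorem endJF_N (f : ℕ) : endJF D w0 f D.N = D.N := by
  cases f with
  | zero => rfl
  | succ f =>
    rw [endJF_succ, S.hN D.jc le_rfl]
    have : Nat.blt w0 0 = false := by
      cases h : Nat.blt w0 0 with
      | false => rfl
      | true => exact absurd (Nat.blt_eq.mp h) (Nat.not_lt_zero _)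
    rw [this]; rfl

theorem endJF_lt (f : ℕ) : ∀ u, u < D.N →
    endJF D w0 f u < D.N ∧ cosetOf H val D (endJF D w0 f u) = cosetOf H val D u := by
  induction f with
  | zero => intro u hu; rw [endJF_zero]; exact ⟨hu, rfl⟩
  | succ f ih =>
    intro u hu
    rw [endJF_succ]
    cases h2 : Nat.blt w0 (D.om (D.E D.jc u)) with
    | true =>
      obtain ⟨g1, g2⟩ := IH D.jc le_rfl u hu (Nat.blt_eq.mp h2)
      rw [S.hJ, one_smul] at g2
      obtain ⟨k1, k2⟩ := ih _ g1
      refine ⟨k1, ?_⟩
      show cosetOf H val D (endJF D w0 f (D.tg (D.E D.jc u))) = _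
      rw [k2, ← g2]
    | false => exact ⟨hu, rfl⟩

/-- if the representative is a name then so was the argument -/
theorem endJF_lt_imp (f u : ℕ) (hu : u ≤ D.N) (h : endJF D w0 f u < D.N) : u < D.N := by
  rcases Nat.lt_or_ge u D.N with h1 | h1
  · exact h1
  · have : u = D.N := le_antisymm hu h1
    rw [this, endJF_N S w0 IH] at h
    exact absurd h (lt_irrefl _)

theorem walkF_N (l : List ℕ) (hl : ∀ a ∈ l, a ≤ D.jc) : walkF D w0 l D.N = D.N := by
  induction l with
  | nil => rfl
  | cons a l ih =>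
    rw [walkF_cons, lazyStepF_N S w0 IH a (hl a List.mem_cons_self)]
    exact ih (fun b hb => hl b (List.mem_cons_of_mem _ hb))

theorem walkF_lt (l : List ℕ) (hl : ∀ a ∈ l, a ≤ D.jc) : ∀ u, u < D.N →
    walkF D w0 l u ≤ D.N ∧
      (walkF D w0 l u < D.N → cosetOf H val D (walkF D w0 l u) = appProd val l • cosetOf H val D u) := by
  induction l with
  | nil => intro u hu; rw [walkF_nil, appProd_nil, one_smul]; exact ⟨le_of_lt hu, fun _ => rfl⟩
  | cons a l ih =>
    intro u hu
    rw [walkF_cons]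
    have hl' : ∀ b ∈ l, b ≤ D.jc := fun b hb => hl b (List.mem_cons_of_mem _ hb)
    obtain ⟨g1, g2⟩ := lazyStepF_lt S w0 IH a (hl a List.mem_cons_self) D.fuel u hu
    rcases Nat.lt_or_ge (lazyStepF D w0 a D.fuel u) D.N with h1 | h1
    · obtain ⟨k1, k2⟩ := ih hl' _ h1
      refine ⟨k1, fun h => ?_⟩
      rw [k2 h, g2 h1, appProd_cons, mul_smul]
    · have : lazyStepF D w0 a D.fuel u = D.N := le_antisymm g1 h1
      rw [this, walkF_N S w0 IH l hl']
      exact ⟨le_rfl, fun h => absurd h (lt_irrefl _)⟩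

theorem walkB_N (l : List ℕ) (hl : ∀ a ∈ l, a ≤ D.jc) : walkB D w0 l D.N = D.N := by
  induction l with
  | nil => rfl
  | cons a l ih =>
    rw [walkB_cons, ih (fun b hb => hl b (List.mem_cons_of_mem _ hb)),
      lazyStepF_N S w0 IH (D.iv a) (S.hiv a (hl a List.mem_cons_self))]

theorem walkB_lt (l : List ℕ) (hl : ∀ a ∈ l, a ≤ D.jc) (u : ℕ) (hu : u < D.N) :
    walkB D w0 l u ≤ D.N ∧
      (walkB D w0 l u < D.N → cosetOf H val D (walkB D w0 l u) = (appProd val l)⁻¹ • cosetOf H val D u) := by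
  induction l with
  | nil => rw [walkB_nil, appProd_nil, inv_one, one_smul]; exact ⟨le_of_lt hu, fun _ => rfl⟩
  | cons a l ih =>
    rw [walkB_cons]
    have hl' : ∀ b ∈ l, b ≤ D.jc := fun b hb => hl b (List.mem_cons_of_mem _ hb)
    have ha : a ≤ D.jc := hl a List.mem_cons_self
    obtain ⟨k1, k2⟩ := ih hl'
    rcases Nat.lt_or_ge (walkB D w0 l u) D.N with h1 | h1
    · obtain ⟨g1, g2⟩ := lazyStepF_lt S w0 IH (D.iv a) (S.hiv a ha) D.fuel _ h1
      refine ⟨g1, fun h => ?_⟩
      rw [g2 h, k2 h1, appProd_cons, mul_inv_rev, mul_smul]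
      congr 1
      exact eq_inv_of_mul_eq_one_left (S.hinv a ha)
    · have : walkB D w0 l u = D.N := le_antisymm k1 h1
      rw [this, lazyStepF_N S w0 IH (D.iv a) (S.hiv a ha)]
      exact ⟨le_rfl, fun h => absurd h (lt_irrefl _)⟩

/-- a forward walk followed by the representative, when it ends at a name -/
theorem fwd_sound (l : List ℕ) (hl : ∀ a ∈ l, a ≤ D.jc) (s x : ℕ) (hs : s < D.N) (hx : x < D.N)
    (h : endJF D w0 D.fuel (walkF D w0 l s) = x) :
    cosetOf H val D x = appProd val l • cosetOf H val D s := by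
  obtain ⟨g1, g2⟩ := walkF_lt S w0 IH l hl s hs
  have h1 : walkF D w0 l s < D.N := endJF_lt_imp S w0 IH _ _ g1 (by rw [h]; exact hx)
  obtain ⟨_, k2⟩ := endJF_lt S w0 IH D.fuel _ h1
  rw [← h, k2, g2 h1]

/-- a backward walk followed by the representative, when it ends at a name -/
theorem bwd_sound (l : List ℕ) (hl : ∀ a ∈ l, a ≤ D.jc) (s y : ℕ) (hs : s < D.N) (hy : y < D.N)
    (h : endJF D w0 D.fuel (walkB D w0 l s) = y) :
    cosetOf H val D y = (appProd val l)⁻¹ • cosetOf H val D s := by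
  obtain ⟨g1, g2⟩ := walkB_lt S w0 IH l hl s hs
  have h1 : walkB D w0 l s < D.N := endJF_lt_imp S w0 IH _ _ g1 (by rw [h]; exact hy)
  obtain ⟨_, k2⟩ := endJF_lt S w0 IH D.fuel _ h1
  rw [← h, k2, g2 h1]

theorem bstart_sound (j : ℕ) (hs : D.js j < D.N) :
    bstart D w0 j < D.N ∧ cosetOf H val D (bstart D w0 j) = cosetOf H val D (D.js j) := by
  unfold bstart
  cases Nat.beq (D.jf j) 0 with
  | true => exact ⟨hs, rfl⟩
  | false => exact endJF_lt S w0 IH D.fuel _ hs

end Walks

section Main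

variable {H} {D : TCData} {val : ℕ → G} (S : TCSem H D val)
include S

theorem cosetOf_zero : cosetOf H val D 0 = QuotientGroup.mk 1 := by
  unfold cosetOf; rw [uOf_zero]

/-- the word of a scan fixes the coset of its start -/
theorem side_sound (j : ℕ) (h : sideOK D j = true) :
    D.js j < D.N ∧ (∀ a ∈ scanL D j, a ≤ D.jc) ∧
      appProd val (scanL D j) • cosetOf H val D (D.js j) = cosetOf H val D (D.js j) := by
  unfold sideOK at h
  rw [Bool.and_eq_true] at h
  obtain ⟨h1, h2⟩ := h
  refine ⟨Nat.blt_eq.mp h1, fun a ha => S.hlet _ a (mem_rotN ha), ?_⟩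
  unfold scanL
  cases h3 : Nat.blt (D.jr j) D.nrel with
  | true =>
    rw [appProd_rotN val _ _ (S.hrel _ (Nat.blt_eq.mp h3)), one_smul]
  | false =>
    rw [h3] at h2
    have h2' : (and (Nat.beq (D.js j) 0) (Nat.beq (D.jo j) 0)) = true := h2
    rw [Bool.and_eq_true] at h2'
    have e1 : D.js j = 0 := Nat.eq_of_beq_eq_true h2'.1
    have e2 : D.jo j = 0 := Nat.eq_of_beq_eq_true h2'.2
    have h4 : D.nrel ≤ D.jr j := by
      rcases Nat.lt_or_ge (D.jr j) D.nrel with h5 | h5
      · rw [Nat.blt_eq.mpr h5] at h3; exact absurd h3 (by simp)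
      · exact h5
    rw [e1, e2, rotN_eq, dropN_zero, takeN_zero, List.append_nil, cosetOf_zero S]
    have hm := S.hsub _ h4
    rw [MulAction.Quotient.smul_mk, smul_eq_mul, mul_one]
    exact (QuotientGroup.eq).mpr (by simpa using hm)

theorem chkG_unpack (a x : ℕ) (h : chkG D a x = true) (hpos : 0 < D.om (D.E a x)) :
    D.tg (D.E a x) < D.N ∧ D.om (D.E a x) ≤ D.W ∧
      (cond (Nat.beq (D.jk (D.J a x)) 0) (chkDef D a x (D.tg (D.E a x)))
        (chkScanG D a x (D.tg (D.E a x)) (D.om (D.E a x)) (D.J a x))) = true := by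
  unfold chkG chkGe at h
  have h0 : Nat.beq (D.om (D.E a x)) 0 = false := by
    cases h1 : Nat.beq (D.om (D.E a x)) 0 with
    | false => rfl
    | true => exact absurd (Nat.eq_of_beq_eq_true h1) (Nat.pos_iff_ne_zero.mp hpos)
  rw [h0] at h
  simp only [cond_false, Bool.and_eq_true] at h
  exact ⟨Nat.blt_eq.mp h.1, Nat.ble_eq.mp h.2.1, h.2.2⟩

theorem chkJ_unpack (x : ℕ) (h : chkJ D x = true) (hpos : 0 < D.om (D.E D.jc x)) :
    D.tg (D.E D.jc x) < D.N ∧ D.om (D.E D.jc x) ≤ D.W ∧
      chkScanJ D x (D.tg (D.E D.jc x)) (D.om (D.E D.jc x)) (D.J D.jc x) = true := by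
  unfold chkJ chkJe at h
  have h0 : Nat.beq (D.om (D.E D.jc x)) 0 = false := by
    cases h1 : Nat.beq (D.om (D.E D.jc x)) 0 with
    | false => rfl
    | true => exact absurd (Nat.eq_of_beq_eq_true h1) (Nat.pos_iff_ne_zero.mp hpos)
  rw [h0] at h
  simp only [cond_false, Bool.and_eq_true] at h
  exact ⟨Nat.blt_eq.mp h.1, Nat.ble_eq.mp h.2.1, h.2.2⟩

theorem om_le_W (a x : ℕ) (ha : a ≤ D.jc) (hx : x < D.N) (hpos : 0 < D.om (D.E a x)) :
    D.om (D.E a x) ≤ D.W := by
  rcases Nat.lt_or_ge a D.jc with h | h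
  · exact (chkG_unpack S a x (S.hchk a h x hx) hpos).2.1
  · have : a = D.jc := le_antisymm ha h
    subst this
    exact (chkJ_unpack S x (S.hchkJ x hx) hpos).2.1

theorem good_of_def (a x : ℕ) (h : chkDef D a x (D.tg (D.E a x)) = true) :
    val a • cosetOf H val D x = cosetOf H val D (D.tg (D.E a x)) := by
  unfold chkDef at h
  simp only [Bool.and_eq_true] at h
  obtain ⟨h1, h2, h3, h4⟩ := h
  have e1 := Nat.eq_of_beq_eq_true h1
  have e2 := Nat.eq_of_beq_eq_true h2
  have e3 := Nat.eq_of_beq_eq_true h3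
  have e4 := Nat.blt_eq.mp h4
  unfold cosetOf
  rw [uOf_step val D (D.tg (D.E a x)) e1 (by rw [e2]; exact e4), e2, e3,
    MulAction.Quotient.smul_mk, smul_eq_mul]

theorem good_of_scanG (a x : ℕ) (hx : x < D.N) (hy : D.tg (D.E a x) < D.N)
    (IH : ∀ a', a' ≤ D.jc → ∀ x', x' < D.N → D.om (D.E a x) < D.om (D.E a' x') → GoodAt H D val a' x')
    (h : chkScanG D a x (D.tg (D.E a x)) (D.om (D.E a x)) (D.J a x) = true) :
    val a • cosetOf H val D x = cosetOf H val D (D.tg (D.E a x)) := by
  unfold chkScanG at h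
  simp only [Bool.and_eq_true] at h
  obtain ⟨h1, h2, h3⟩ := h
  obtain ⟨hs, hlet, hunit⟩ := side_sound S _ h1
  obtain ⟨Bs, hB, h4⟩ := (gapChk_iff _ _ _).mp h3
  have hL := takeN_append_dropN (scanL D (D.J a x)) (D.jg (D.J a x))
  rw [hB] at hL
  have hA : ∀ b ∈ takeN (scanL D (D.J a x)) (D.jg (D.J a x)), b ≤ D.jc := fun b hb =>
    hlet b (by rw [← hL]; exact List.mem_append_left _ hb)
  have hBs : ∀ b ∈ Bs, b ≤ D.jc := fun b hb =>
    hlet b (by rw [← hL]; exact List.mem_append_right _ (List.mem_cons_of_mem _ hb))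
  have f1 := fwd_sound S _ IH _ hA _ x hs hx (Nat.eq_of_beq_eq_true h2)
  obtain ⟨b1, b2⟩ := bstart_sound S (D.om (D.E a x)) IH (D.J a x) hs
  have f2 := bwd_sound S _ IH Bs hBs _ _ b1 hy (Nat.eq_of_beq_eq_true h4)
  rw [b2] at f2
  rw [← hL, appProd_append, appProd_cons] at hunit
  rw [f1, f2, eq_inv_smul_iff, ← mul_smul, ← mul_smul]
  exact hunit

theorem good_of_scanJ (x : ℕ) (hx : x < D.N) (hy : D.tg (D.E D.jc x) < D.N)
    (IH : ∀ a', a' ≤ D.jc → ∀ x', x' < D.N → D.om (D.E D.jc x) < D.om (D.E a' x') → GoodAt H D val a' x')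
    (h : chkScanJ D x (D.tg (D.E D.jc x)) (D.om (D.E D.jc x)) (D.J D.jc x) = true) :
    val D.jc • cosetOf H val D x = cosetOf H val D (D.tg (D.E D.jc x)) := by
  unfold chkScanJ at h
  simp only [Bool.and_eq_true, Bool.or_eq_true] at h
  obtain ⟨h1, h2⟩ := h
  obtain ⟨hs, hlet, hunit⟩ := side_sound S _ h1
  have hL := takeN_append_dropN (scanL D (D.J D.jc x)) (D.jg (D.J D.jc x))
  have hA : ∀ b ∈ takeN (scanL D (D.J D.jc x)) (D.jg (D.J D.jc x)), b ≤ D.jc := fun b hb =>
    hlet b (by rw [← hL]; exact List.mem_append_left _ hb)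
  have hBs : ∀ b ∈ dropN (scanL D (D.J D.jc x)) (D.jg (D.J D.jc x)), b ≤ D.jc := fun b hb =>
    hlet b (by rw [← hL]; exact List.mem_append_right _ hb)
  obtain ⟨b1, b2⟩ := bstart_sound S (D.om (D.E D.jc x)) IH (D.J D.jc x) hs
  rw [← hL, appProd_append] at hunit
  rw [S.hJ, one_smul]
  have key : ∀ p q, p < D.N → q < D.N →
      endJF D (D.om (D.E D.jc x)) D.fuel (walkF D (D.om (D.E D.jc x))
        (takeN (scanL D (D.J D.jc x)) (D.jg (D.J D.jc x))) (D.js (D.J D.jc x))) = p →
      endJF D (D.om (D.E D.jc x)) D.fuel (walkB D (D.om (D.E D.jc x))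
        (dropN (scanL D (D.J D.jc x)) (D.jg (D.J D.jc x))) (bstart D (D.om (D.E D.jc x)) (D.J D.jc x))) = q →
      cosetOf H val D p = cosetOf H val D q := by
    intro p q hp hq e1 e2
    have f1 := fwd_sound S _ IH _ hA _ p hs hp e1
    have f2 := bwd_sound S _ IH _ hBs _ q b1 hq e2
    rw [b2] at f2
    rw [f1, f2, eq_inv_smul_iff, ← mul_smul]
    exact hunit
  rcases h2 with ⟨e1, e2⟩ | ⟨e1, e2⟩
  · exact key _ _ hx hy (Nat.eq_of_beq_eq_true e1) (Nat.eq_of_beq_eq_true e2)
  · exact (key _ _ hy hx (Nat.eq_of_beq_eq_true e1) (Nat.eq_of_beq_eq_true e2)).symm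

theorem valid_aux : ∀ d a, a ≤ D.jc → ∀ x, x < D.N → 0 < D.om (D.E a x) →
    D.W - D.om (D.E a x) < d → GoodAt H D val a x := by
  intro d
  induction d with
  | zero => intro a _ x _ _ h; exact absurd h (Nat.not_lt_zero _)
  | succ d ih =>
    intro a ha x hx hpos hd
    have hW := om_le_W S a x ha hx hpos
    have IH : ∀ a', a' ≤ D.jc → ∀ x', x' < D.N → D.om (D.E a x) < D.om (D.E a' x') →
        GoodAt H D val a' x' := by
      intro a' ha' x' hx' hlt
      have hpos' : 0 < D.om (D.E a' x') := lt_of_le_of_lt (Nat.zero_le _) hlt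
      have hW' := om_le_W S a' x' ha' hx' hpos'
      exact ih a' ha' x' hx' hpos' (by omega)
    rcases Nat.lt_or_ge a D.jc with h | h
    · obtain ⟨u1, _, u3⟩ := chkG_unpack S a x (S.hchk a h x hx) hpos
      refine ⟨u1, ?_⟩
      cases hk : Nat.beq (D.jk (D.J a x)) 0 with
      | true => rw [hk] at u3; exact good_of_def S a x u3
      | false => rw [hk] at u3; exact good_of_scanG S a x hx u1 IH u3
    · have hj : a = D.jc := le_antisymm ha h
      subst hj
      obtain ⟨u1, _, u3⟩ := chkJ_unpack S x (S.hchkJ x hx) hpos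
      exact ⟨u1, good_of_scanJ S x hx u1 IH u3⟩

/-- Soundness: every defined entry is a true fact. -/
theorem valid (a x : ℕ) (ha : a ≤ D.jc) (hx : x < D.N) (hpos : 0 < D.om (D.E a x)) :
    GoodAt H D val a x :=
  valid_aux S (D.W - D.om (D.E a x) + 1) a ha x hx hpos (Nat.lt_succ_self _)

end Main

end Sem

end Cfsg.Agent.Helper28.Gn
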