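import Mathlib
import Cfsg.Agent.Helper28.TCP
import Cfsg.Agent.Helper28.GnK

/-!
# Todd–Coxeter certificates with inverse columns: from the fact table to the index (helper28)
-/

set_option autoImplicit false

namespace Cfsg.Agent.Helper28.Gn

/-- final check: the entry of the generator column `k` at the name of the final coset `i` leads to the
name of the final coset `T k i` -/
noncomputable def chkFin (D : TCData) (lv : ℕ → ℕ) (T : ℕ → ℕ → ℕ) (k i : ℕ) : Bool :=
  and (Nat.blt (lv i) D.N) (and (Nat.blt 0 (D.om (D.E k (lv i))))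
    (Nat.beq (endJF D 0 D.fuel (D.tg (D.E k (lv i)))) (lv (T k i))))

/-- The final data: `n` cosets with names `lv i`, the table `T`, and a spanning tree of the table. -/
structure FinSem (D : TCData) (n : ℕ) (lv : ℕ → ℕ) (T : ℕ → ℕ → ℕ) : Prop where
  hfin : ∀ k, k < D.jc → ∀ i, i < n → chkFin D lv T k i = true
  hT : ∀ k, k < D.jc → ∀ i, i < n → T k i < n
  hlv0 : lv 0 = 0
  htree : ∀ i, 0 < i → i < n → ∃ k, k < D.jc ∧ ∃ j, j < i ∧ T k j = i

section

variable {G : Type*} [Group G] {H : Subgroup G} {D : TCData} {val : ℕ → G} (S : TCSem H D val)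
include S

theorem fin_sound (lv : ℕ → ℕ) (T : ℕ → ℕ → ℕ) (k i : ℕ) (hk : k < D.jc)
    (h : chkFin D lv T k i = true) :
    val k • cosetOf H val D (lv i) = cosetOf H val D (lv (T k i)) := by
  unfold chkFin at h
  simp only [Bool.and_eq_true] at h
  obtain ⟨h1, h2, h3⟩ := h
  have hx := Nat.blt_eq.mp h1
  have hpos := Nat.blt_eq.mp h2
  obtain ⟨g1, g2⟩ := valid S k (lv i) (le_of_lt hk) hx hpos
  have IH : ∀ a, a ≤ D.jc → ∀ x, x < D.N → 0 < D.om (D.E a x) → GoodAt H D val a x :=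
    fun a ha x hx hp => valid S a x ha hx hp
  obtain ⟨_, k2⟩ := endJF_lt S 0 IH D.fuel _ g1
  rw [g2, ← k2, Nat.eq_of_beq_eq_true h3]

variable {n : ℕ} {lv : ℕ → ℕ} {T : ℕ → ℕ → ℕ} (F : FinSem D n lv T)
include F

theorem cover (hn : 0 < n) (hgen : Subgroup.closure (val '' {k | k < D.jc}) = ⊤) (q : G ⧸ H) :
    ∃ i, i < n ∧ q = cosetOf H val D (lv i) := by
  have key : ∀ x : G,
      (∀ i, i < n → ∃ i', i' < n ∧ x • cosetOf H val D (lv i) = cosetOf H val D (lv i')) ∧
      (∀ i, i < n → ∃ i', i' < n ∧ x⁻¹ • cosetOf H val D (lv i) = cosetOf H val D (lv i')) := by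
    intro x
    have hx : x ∈ Subgroup.closure (val '' {k | k < D.jc}) := by rw [hgen]; trivial
    have hall : ∀ k, k < D.jc → ∀ i, i < n → ∃ i', i' < n ∧
        val k • cosetOf H val D (lv i) = cosetOf H val D (lv i') :=
      fun k hk i hi => ⟨T k i, F.hT k hk i hi, fin_sound S lv T k i hk (F.hfin k hk i hi)⟩
    induction hx using Subgroup.closure_induction with
    | mem y hy =>
      obtain ⟨k, hk, rfl⟩ := hy
      have hk' : k < D.jc := hk
      have h1 : ∀ i, i < n → ∃ i', i' < n ∧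
          val k • cosetOf H val D (lv i) = cosetOf H val D (lv i') :=
        fun i hi => ⟨T k i, F.hT k hk' i hi, fin_sound S lv T k i hk' (F.hfin k hk' i hi)⟩
      refine ⟨h1, ?_⟩
      have h2 : (val k)⁻¹ = val (D.iv k) :=
        (eq_inv_of_mul_eq_one_left (S.hinv k (le_of_lt hk'))).symm
      rw [h2]; exact hall (D.iv k) (S.hivlt k hk')
    | one =>
      refine ⟨fun i hi => ⟨i, hi, one_smul _ _⟩, fun i hi => ⟨i, hi, ?_⟩⟩
      rw [inv_one, one_smul]
    | mul x y _ _ ihx ihy =>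
      refine ⟨fun i hi => ?_, fun i hi => ?_⟩
      · obtain ⟨i1, h1, e1⟩ := ihy.1 i hi
        obtain ⟨i2, h2, e2⟩ := ihx.1 i1 h1
        exact ⟨i2, h2, by rw [mul_smul, e1, e2]⟩
      · obtain ⟨i1, h1, e1⟩ := ihx.2 i hi
        obtain ⟨i2, h2, e2⟩ := ihy.2 i1 h1
        exact ⟨i2, h2, by rw [mul_inv_rev, mul_smul, e1, e2]⟩
    | inv x _ ih => exact ⟨ih.2, by rw [inv_inv]; exact ih.1⟩
  induction q using QuotientGroup.induction_on with
  | H x =>
    obtain ⟨i, hi, e⟩ := (key x).1 0 hn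
    refine ⟨i, hi, ?_⟩
    rw [← e, F.hlv0, cosetOf_zero S, MulAction.Quotient.smul_mk, smul_eq_mul, mul_one]

/-- The cosets of `H` are in equivariant bijection with `Fin n`. -/
theorem exists_equiv (hn : 0 < n) (hgen : Subgroup.closure (val '' {k | k < D.jc}) = ⊤)
    (φ : G →* Equiv.Perm (Fin n))
    (hφ : ∀ k, k < D.jc → ∀ i : Fin n, ((φ (val k) i : Fin n) : ℕ) = T k i)
    (hH : ∀ h ∈ H, φ h ⟨0, hn⟩ = ⟨0, hn⟩) :
    ∃ e : G ⧸ H ≃ Fin n, (∀ (x : G) (q : G ⧸ H), e (x • q) = φ x (e q)) ∧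
      e (QuotientGroup.mk 1) = ⟨0, hn⟩ := by
  let f : G ⧸ H → Fin n := Quotient.lift (s := QuotientGroup.leftRel H) (fun x : G => φ x ⟨0, hn⟩) (by
    intro a b hab
    have h1 : a⁻¹ * b ∈ H := QuotientGroup.leftRel_apply.mp hab
    have h2 : b = a * (a⁻¹ * b) := by group
    show φ a ⟨0, hn⟩ = φ b ⟨0, hn⟩
    rw [h2, map_mul, Equiv.Perm.mul_apply, hH _ h1])
  have hf : ∀ x : G, f (QuotientGroup.mk x) = φ x ⟨0, hn⟩ := fun x => rfl
  have hequi : ∀ (x : G) (q : G ⧸ H), f (x • q) = φ x (f q) := by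
    intro x q
    induction q using QuotientGroup.induction_on with
    | H y => rw [MulAction.Quotient.smul_mk, smul_eq_mul, hf, hf, map_mul, Equiv.Perm.mul_apply]
  have hA : ∀ i (hi : i < n), f (cosetOf H val D (lv i)) = ⟨i, hi⟩ := by
    intro i
    induction i using Nat.strong_induction_on with
    | _ i ih =>
      intro hi
      rcases Nat.eq_zero_or_pos i with h0 | h0
      · subst h0
        rw [F.hlv0, cosetOf_zero S, hf, map_one]; rfl
      · obtain ⟨k, hk, j, hj, e⟩ := F.htree i h0 hi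
        have hjn : j < n := lt_trans hj hi
        have e1 := fin_sound S lv T k j hk (F.hfin k hk j hjn)
        rw [e] at e1
        rw [← e1, hequi, ih j hj hjn]
        apply Fin.ext
        rw [hφ k hk]
        exact e
  have hinj : Function.Injective f := by
    intro q q' hq
    obtain ⟨i, hi, rfl⟩ := cover S F hn hgen q
    obtain ⟨i', hi', rfl⟩ := cover S F hn hgen q'
    rw [hA i hi, hA i' hi'] at hq
    have : i = i' := congrArg Fin.val hq
    rw [this]
  have hsurj : Function.Surjective f := fun i => ⟨cosetOf H val D (lv i), by rw [hA i i.2]⟩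
  refine ⟨Equiv.ofBijective f ⟨hinj, hsurj⟩, fun x q => hequi x q, ?_⟩
  show f (QuotientGroup.mk 1) = _
  rw [hf, map_one]; rfl

theorem index_eq (hn : 0 < n) (hgen : Subgroup.closure (val '' {k | k < D.jc}) = ⊤)
    (φ : G →* Equiv.Perm (Fin n))
    (hφ : ∀ k, k < D.jc → ∀ i : Fin n, ((φ (val k) i : Fin n) : ℕ) = T k i)
    (hH : ∀ h ∈ H, φ h ⟨0, hn⟩ = ⟨0, hn⟩) : H.index = n := by
  obtain ⟨e, _, _⟩ := exists_equiv S F hn hgen φ hφ hH
  rw [Subgroup.index, Nat.card_congr e, Nat.card_fin]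

end

end Cfsg.Agent.Helper28.Gn
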