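import Mathlib
import Cfsg.Agent.Helper28.GnD
import Cfsg.Agent.Helper28.GnC

/-!
# Relator checks on the final table: words given by their columns, and power words (helper28)

A relator `pre ++ rep ^ m` is checked with the help of a table `W` of the word `rep`: this costs
`|rep| + m + |pre|` lookups per point instead of `|rep| * m + |pre|`.
-/

set_option autoImplicit false

namespace Cfsg.Agent.Helper28.Gn

theorem brec_and (b c : Bool) :
    (Bool.rec (motive := fun _ => Bool) false c b : Bool) = true ↔ b = true ∧ c = true := by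
  cases b <;> simp

/-- walk of a word given by its columns on the final table; the last letter acts first -/
noncomputable def walkC (look : List ℕ → ℕ → ℕ) (l : List (List ℕ)) (i : ℕ) : ℕ :=
  List.rec (motive := fun _ => ℕ) i (fun c _ ih => look c ih) l

theorem walkC_nil (look : List ℕ → ℕ → ℕ) (i : ℕ) : walkC look [] i = i := rfl

theorem walkC_cons (look : List ℕ → ℕ → ℕ) (c : List ℕ) (l : List (List ℕ)) (i : ℕ) :
    walkC look (c :: l) i = look c (walkC look l i) := rfl

theorem walkC_map (look : List ℕ → ℕ → ℕ) (colOf : ℕ → List ℕ) (l : List ℕ) (i : ℕ) :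
    walkC look (l.map colOf) i = walkA (fun k i => look (colOf k) i) l i := by
  induction l with
  | nil => rfl
  | cons k l ih => rw [List.map_cons, walkC_cons, walkA_cons, ih]

theorem walkA_append (T : ℕ → ℕ → ℕ) (l1 l2 : List ℕ) (i : ℕ) :
    walkA T (l1 ++ l2) i = walkA T l1 (walkA T l2 i) := by
  induction l1 with
  | nil => rfl
  | cons k l ih => rw [List.cons_append, walkA_cons, walkA_cons, ih]

/-- all words (given by their columns) fix the point `i` -/
noncomputable def relPtC (look : List ℕ → ℕ → ℕ) (ws : List (List (List ℕ))) (i : ℕ) : Bool :=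
  List.rec (motive := fun _ => Bool) true
    (fun l _ ih => Bool.rec (motive := fun _ => Bool) false ih (Nat.beq (walkC look l i) i)) ws

theorem relPtC_iff (look : List ℕ → ℕ → ℕ) (ws : List (List (List ℕ))) (i : ℕ) :
    relPtC look ws i = true ↔ ∀ l ∈ ws, walkC look l i = i := by
  induction ws with
  | nil => simp [relPtC]
  | cons l ws ih =>
    have e : relPtC look (l :: ws) i =
        Bool.rec (motive := fun _ => Bool) false (relPtC look ws i) (Nat.beq (walkC look l i) i) := rfl
    rw [e, brec_and, ih]
    constructor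
    · rintro ⟨h1, h2⟩ l' hl'
      rcases List.mem_cons.mp hl' with h | h
      · rw [h]; exact Nat.eq_of_beq_eq_true h1
      · exact h2 l' h
    · intro h
      refine ⟨?_, fun l' hl' => h l' (List.mem_cons_of_mem _ hl')⟩
      rw [h l List.mem_cons_self]; exact Nat.beq_refl _

theorem relC_ok (look : List ℕ → ℕ → ℕ) (colOf : ℕ → List ℕ) (ws : List (List ℕ))
    (wsC : List (List (List ℕ))) (n : ℕ) (hC : wsC = ws.map (List.map colOf))
    (h : ∀ i, i < n → relPtC look wsC i = true) :
    ∀ l ∈ ws, ∀ i, i < n → walkA (fun k i => look (colOf k) i) l i = i := by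
  intro l hl i hi
  have h1 := (relPtC_iff look wsC i).mp (h i hi) (l.map colOf)
    (by rw [hC]; exact List.mem_map_of_mem hl)
  rw [walkC_map] at h1
  exact h1

/-- `m`-fold iterate -/
noncomputable def iterN (f : ℕ → ℕ) (m : ℕ) (i : ℕ) : ℕ :=
  Nat.rec (motive := fun _ => ℕ) i (fun _ ih => f ih) m

theorem iterN_zero (f : ℕ → ℕ) (i : ℕ) : iterN f 0 i = i := rfl

theorem iterN_succ (f : ℕ → ℕ) (m i : ℕ) : iterN f (m + 1) i = f (iterN f m i) := rfl

/-- the `m`-th power of a word -/
def lpow (w : List ℕ) : ℕ → List ℕ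
  | 0 => []
  | m + 1 => w ++ lpow w m

/-- the check of the word `pre ++ rep ^ m` at the point `i`, where `W` is the table of `rep` -/
noncomputable def powPt (look : List ℕ → ℕ → ℕ) (W : ℕ → ℕ) (n : ℕ) (preC repC : List (List ℕ))
    (m : ℕ) (i : ℕ) : Bool :=
  Bool.rec (motive := fun _ => Bool) false
    (Bool.rec (motive := fun _ => Bool) false
      (Nat.beq (walkC look preC (iterN W m i)) i)
      (Nat.blt (W i) n))
    (Nat.beq (walkC look repC i) (W i))

theorem pow_ok (look : List ℕ → ℕ → ℕ) (colOf : ℕ → List ℕ) (W : ℕ → ℕ) (n : ℕ) (pre rep : List ℕ)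
    (m : ℕ) (preC repC : List (List ℕ)) (hpre : preC = pre.map colOf) (hrep : repC = rep.map colOf)
    (h : ∀ i, i < n → powPt look W n preC repC m i = true) :
    ∀ i, i < n → walkA (fun k i => look (colOf k) i) (pre ++ lpow rep m) i = i := by
  have hA : ∀ i, i < n → walkA (fun k i => look (colOf k) i) rep i = W i ∧ W i < n ∧
      walkA (fun k i => look (colOf k) i) pre (iterN W m i) = i := by
    intro i hi
    have h1 := h i hi
    unfold powPt at h1
    rw [brec_and, brec_and] at h1
    obtain ⟨a1, a2, a3⟩ := h1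
    have b1 := Nat.eq_of_beq_eq_true a1
    have b3 := Nat.eq_of_beq_eq_true a3
    rw [hrep, walkC_map] at b1
    rw [hpre, walkC_map] at b3
    exact ⟨b1, Nat.blt_eq.mp a2, b3⟩
  have hP : ∀ k i, i < n → walkA (fun k i => look (colOf k) i) (lpow rep k) i = iterN W k i ∧
      iterN W k i < n := by
    intro k
    induction k with
    | zero => intro i hi; exact ⟨rfl, hi⟩
    | succ k ih =>
      intro i hi
      obtain ⟨e1, e2⟩ := ih i hi
      have e3 : lpow rep (k + 1) = rep ++ lpow rep k := rfl
      rw [e3, walkA_append, e1, iterN_succ]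
      exact ⟨(hA _ e2).1, (hA _ e2).2.1⟩
  intro i hi
  rw [walkA_append, (hP m i hi).1]
  exact (hA i hi).2.2

section Words

variable {α : Type} [DecidableEq α] (edges : List (α × ℕ × α)) (gen : ℕ → α) (sgn : ℕ → Bool)

theorem wordOfG_mul {s1 s2 : FreeGroup α} {l1 l2 : List ℕ} (h1 : WordOfG edges gen sgn s1 l1)
    (h2 : WordOfG edges gen sgn s2 l2) : WordOfG edges gen sgn (s1 * s2) (l1 ++ l2) := by
  intro K _ v hv
  rw [map_mul, h1 K v hv, h2 K v hv, List.map_append, List.prod_append]

theorem wordOfG_pow {s : FreeGroup α} {l : List ℕ} (h : WordOfG edges gen sgn s l) (m : ℕ) :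
    WordOfG edges gen sgn (s ^ m) (lpow l m) := by
  induction m with
  | zero =>
    intro K _ v hv
    rw [pow_zero, map_one]; rfl
  | succ m ih =>
    rw [pow_succ']
    exact wordOfG_mul edges gen sgn h ih

end Words

end Cfsg.Agent.Helper28.Gn
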