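import Mathlib

/-!
# Normal subgroups and maximal subgroups (helper28)
-/

set_option autoImplicit false

namespace Cfsg.Agent.Helper28

/-- A normal subgroup that is not inside the maximal subgroup `H` contains every element whose `p`-th
power is trivial, for a prime `p` not dividing the order of `H`. -/
theorem mem_normal_of_pow_prime {G : Type*} [Group G] (H K : Subgroup G) (hK : K.Normal)
    (hmax : ∀ L : Subgroup G, H ≤ L → L = H ∨ L = ⊤) (hKH : ¬ K ≤ H) (p : ℕ) (hp : p.Prime)
    (hpH : ¬ p ∣ Nat.card H) (x : G) (hx : x ^ p = 1) : x ∈ K := by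
  have hsup : K ⊔ H = ⊤ := by
    rcases hmax (K ⊔ H) le_sup_right with h | h
    · exact absurd (h ▸ le_sup_left) hKH
    · exact h
  let f : H →* G ⧸ K := (QuotientGroup.mk' K).comp H.subtype
  have hf : Function.Surjective f := by
    intro q
    obtain ⟨g, rfl⟩ := QuotientGroup.mk'_surjective K q
    have hg : g ∈ (↑(K ⊔ H) : Set G) := by rw [hsup]; trivial
    rw [Subgroup.normal_mul] at hg
    obtain ⟨k, hk, h, hh, rfl⟩ := Set.mem_mul.mp hg
    refine ⟨⟨h, hh⟩, ?_⟩
    show QuotientGroup.mk' K h = QuotientGroup.mk' K (k * h)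
    have hk1 : QuotientGroup.mk' K k = 1 := (QuotientGroup.eq_one_iff k).mpr hk
    rw [map_mul, hk1, one_mul]
  have hdvd : Nat.card (G ⧸ K) ∣ Nat.card H := Subgroup.card_dvd_of_surjective f hf
  have hq : (QuotientGroup.mk' K x) ^ p = 1 := by rw [← map_pow, hx, map_one]
  have ho : orderOf (QuotientGroup.mk' K x) ∣ p := orderOf_dvd_of_pow_eq_one hq
  have ho2 : orderOf (QuotientGroup.mk' K x) ∣ Nat.card (G ⧸ K) := orderOf_dvd_natCard _
  rcases (Nat.dvd_prime hp).mp ho with h1 | h1
  · have h2 : QuotientGroup.mk' K x = 1 := orderOf_eq_one_iff.mp h1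
    exact (QuotientGroup.eq_one_iff x).mp h2
  · exact absurd (h1 ▸ ho2.trans hdvd) hpH

/-- the product of a repeated word -/
theorem prod_replicate_flatten {G : Type*} [Monoid G] (f : ℕ → G) (l : List ℕ) (n : ℕ) :
    ((List.replicate n l).flatten.map f).prod = ((l.map f).prod) ^ n := by
  induction n with
  | zero => simp
  | succ n ih => rw [List.replicate_succ, List.flatten_cons, List.map_append, List.prod_append, ih, pow_succ']

end Cfsg.Agent.Helper28
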