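import Mathlib
import Cfsg.Agent.Lead.LWDefs

/-! # CALL S0747, piece A1: a subgroup of `Sym` of index less than the degree contains `Alt` -/

set_option autoImplicit false

namespace Cfsg.Agent.Helper28.LWA1

open Cfsg.Agent.Lead.LW

variable {α : Type*} [Fintype α] [DecidableEq α]

-- PIECE A1  (a subgroup of small index in `Sym` contains `Alt`)
theorem alt_le_of_index_lt {β : Type*} [Fintype β] [DecidableEq β] (H : Subgroup (Equiv.Perm β))
    (h5 : 5 ≤ Fintype.card β) (hidx : H.index < Fintype.card β) : alternatingGroup β ≤ H := by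
  have hcore : H.normalCore ≤ H := Subgroup.normalCore_le H
  rcases H.normalCore.bot_or_nontrivial with h | h
  · exfalso
    have hker : (MulAction.toPermHom (Equiv.Perm β) (Equiv.Perm β ⧸ H)).ker = ⊥ := by
      rw [← Subgroup.normalCore_eq_ker, h]
    have hinj : Function.Injective (MulAction.toPermHom (Equiv.Perm β) (Equiv.Perm β ⧸ H)) :=
      (MonoidHom.ker_eq_bot_iff _).mp hker
    have hle := Nat.card_le_card_of_injective _ hinj
    rw [Nat.card_perm, Nat.card_perm, Nat.card_eq_fintype_card, ← Subgroup.index_eq_card] at hle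
    have hpos : 0 < H.index := Nat.pos_of_ne_zero (Subgroup.index_ne_zero_of_finite)
    have hlt := (Nat.factorial_lt hpos).mpr hidx
    omega
  · have h5' : 5 ≤ Nat.card β := by rw [Nat.card_eq_fintype_card]; exact h5
    exact (Equiv.Perm.alternatingGroup_le_of_normal h5' h).trans hcore

end Cfsg.Agent.Helper28.LWA1
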