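import Mathlib
import Cfsg.Agent.Lead.LWDefs

/-! # CALL S0747, piece C5: the 2-part of an element -/

set_option autoImplicit false

namespace Cfsg.Agent.Helper28.LWC5

open Cfsg.Agent.Lead.LW

variable {α : Type*} [Fintype α] [DecidableEq α]

-- PIECE C5  (pure: the 2-part of an element)
theorem exists_odd_pow {M : Type*} [Group M] [Finite M] (z : M) :
    ∃ c : ℕ, Odd c ∧ ∃ a : ℕ, (z ^ c) ^ (2 ^ a) = 1 := by
  obtain ⟨a, c, hc, h⟩ := Nat.exists_eq_two_pow_mul_odd (orderOf_pos z).ne'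
  refine ⟨c, hc, a, ?_⟩
  rw [← pow_mul, mul_comm, ← h, pow_orderOf_eq_one]

end Cfsg.Agent.Helper28.LWC5
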