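import Mathlib
import Cfsg.Agent.Lead.LWDefs

/-! # CALL S0747, piece C6: a 2-group extended by a normalising 2-element is a 2-group -/

set_option autoImplicit false

namespace Cfsg.Agent.Helper28.LWC6

open Cfsg.Agent.Lead.LW

variable {α : Type*} [Fintype α] [DecidableEq α]

-- PIECE C6  (pure)
theorem isPGroup_sup_zpowers {M : Type*} [Group M] [Finite M] (Q : Subgroup M)
    (hQ : IsPGroup 2 Q) (w : M) (hw : ∀ h, h ∈ Q ↔ w * h * w⁻¹ ∈ Q) (a : ℕ)
    (hwa : w ^ (2 ^ a) = 1) : IsPGroup 2 ↥(Q ⊔ Subgroup.zpowers w) := by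
  have hZ : IsPGroup 2 ↥(Subgroup.zpowers w) := by
    rintro ⟨x, hx⟩
    obtain ⟨i, rfl⟩ := Subgroup.mem_zpowers_iff.mp hx
    refine ⟨a, ?_⟩
    apply Subtype.ext
    show (w ^ i) ^ 2 ^ a = 1
    rw [← zpow_natCast, ← zpow_mul, mul_comm, zpow_mul, zpow_natCast, hwa, one_zpow]
  have hN : Subgroup.zpowers w ≤ Subgroup.normalizer (Q : Set M) := by
    rw [Subgroup.zpowers_le]
    exact Subgroup.mem_normalizer_iff.mpr hw
  exact IsPGroup.to_sup_of_normal_left' hQ hZ hN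

end Cfsg.Agent.Helper28.LWC6
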