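import Mathlib
import Cfsg.Prelude.Def_GeometricClasses
import Cfsg.Agent.Helper2.O12N4
import Cfsg.Agent.Helper66.O12N2

set_option autoImplicit false

/-! PIECE N42 of CALL S5871 (helper97): `Ω(Q)` is not contained in a tensor product subgroup
`2 ⊗ n₂` (an Eichler transformation `g = E(u, b)` has `g - 1` of rank 2 with image `⟨u, b⟩`;
inside `2 ⊗ n₂` this image is `F² ⊗ w`, which pins every `b ⟂ u` into a fixed plane). -/

namespace Cfsg.Agent.Helper28

open Cfsg Cfsg.Geo Matrix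
open scoped Kronecker

section O12pN42

variable {ι : Type} [Fintype ι] [DecidableEq ι] {F : Type*} [Field F]

theorem o12p_tPhi_surj {n₁ n₂ : ℕ} (e : ι ≃ Fin n₁ × Fin n₂) (P : GL ι F) (w : ι → F) :
    ∃ z, Helper94.tPhi e P z = w := by
  refine ⟨fun p => (((P⁻¹ : GL ι F) : Matrix ι ι F) *ᵥ w) (e.symm p), ?_⟩
  rw [Helper94.tPhi_apply]
  have : ((fun p => (((P⁻¹ : GL ι F) : Matrix ι ι F) *ᵥ w) (e.symm p)) ∘ e) =
      ((P⁻¹ : GL ι F) : Matrix ι ι F) *ᵥ w := by
    funext i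
    simp
  rw [this, Matrix.mulVec_mulVec, ← Units.val_mul, mul_inv_cancel, Units.val_one,
    Matrix.one_mulVec]

/-- If `g ≠ 1` acts as `a ⊗ b'` in tensor coordinates `2 ⊗ n₂` (`n₂ ≥ 3`) and `g - 1` has its
image in a subspace `U` of dimension at most 2, then `U = Φ (F² ⊗ w)` for some `w ≠ 0`. -/
theorem o12p_n42_key {n₂ : ℕ} (h3 : 3 ≤ n₂) (e : ι ≃ Fin 2 × Fin n₂) (P : GL ι F)
    (g : Matrix ι ι F) (a : GL (Fin 2) F) (b' : GL (Fin n₂) F)
    (hab : ∀ z : Fin 2 × Fin n₂ → F, g *ᵥ Helper94.tPhi e P z =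
      Helper94.tPhi e P
        (((a : Matrix (Fin 2) (Fin 2) F) ⊗ₖ (b' : Matrix (Fin n₂) (Fin n₂) F)) *ᵥ z))
    (U : Submodule F (ι → F)) (hU : Module.finrank F U ≤ 2)
    (hgU : ∀ x, g *ᵥ x - x ∈ U) (x₁ : ι → F) (hx₁ : g *ᵥ x₁ ≠ x₁) :
    ∃ w : Fin n₂ → F, w ≠ 0 ∧
      ∀ v ∈ U, ∃ x : Fin 2 → F, v = Helper94.tPhi e P (Helper94.tpv x w) := by
  classical
  have hΦ := Helper94.tPhi_injective e P
  have habU : ∀ z, Helper94.tPhi e P
      (((a : Matrix (Fin 2) (Fin 2) F) ⊗ₖ (b' : Matrix (Fin n₂) (Fin n₂) F)) *ᵥ z - z) ∈ U := by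
    intro z
    rw [map_sub, ← hab z]
    exact hgU _
  have hbinj : ∀ y, (b' : Matrix (Fin n₂) (Fin n₂) F) *ᵥ y = 0 → y = 0 := by
    intro y hy
    have h3 := congrArg (fun w => ((b'⁻¹ : GL (Fin n₂) F) : Matrix (Fin n₂) (Fin n₂) F) *ᵥ w) hy
    simpa only [Matrix.mulVec_mulVec, ← Units.val_mul, inv_mul_cancel, Units.val_one,
      Matrix.one_mulVec, Matrix.mulVec_zero] using h3
  obtain ⟨α, hα⟩ := Helper96.Sy.scalar_of_eigen (a : Matrix (Fin 2) (Fin 2) F)
    (Helper2.o12n4_left (Helper94.tPhi e P) hΦ _ _ hbinj h3 U hU habU)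
  obtain ⟨c, hc⟩ : ∃ c : Matrix (Fin n₂) (Fin n₂) F,
      c = α • (b' : Matrix (Fin n₂) (Fin n₂) F) := ⟨_, rfl⟩
  have hkron : ((a : Matrix (Fin 2) (Fin 2) F) ⊗ₖ (b' : Matrix (Fin n₂) (Fin n₂) F)) =
      (1 : Matrix (Fin 2) (Fin 2) F) ⊗ₖ c := by
    rw [hα, hc, Matrix.smul_kronecker, Matrix.kronecker_smul]
  rw [hkron] at hab habU
  -- some `y` is moved by `c`
  obtain ⟨y, hy⟩ : ∃ y, c *ᵥ y ≠ y := by
    by_contra hcon
    push Not at hcon
    have hc1 : c = 1 := by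
      apply Helper13.mulVec_ext
      intro v
      rw [hcon v, Matrix.one_mulVec]
    apply hx₁
    obtain ⟨z, rfl⟩ := o12p_tPhi_surj e P x₁
    rw [hab z, hc1, Matrix.one_kronecker_one, Matrix.one_mulVec]
  obtain ⟨w, hw⟩ : ∃ w : Fin n₂ → F, w = c *ᵥ y - y := ⟨_, rfl⟩
  have hw0 : w ≠ 0 := by
    rw [hw]
    intro h
    exact hy (sub_eq_zero.mp h)
  refine ⟨w, hw0, ?_⟩
  obtain ⟨L, hL⟩ : ∃ L : (Fin 2 → F) →ₗ[F] (ι → F),
      L = (Helper94.tPhi e P) ∘ₗ (Helper94.tpvL w) := ⟨_, rfl⟩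
  have hLapply : ∀ x, L x = Helper94.tPhi e P (Helper94.tpv x w) := by
    intro x
    rw [hL, LinearMap.comp_apply, Helper94.tpvL_apply]
  have hrange : LinearMap.range L ≤ U := by
    rintro _ ⟨x, rfl⟩
    rw [hLapply]
    have h1 : Helper94.tpv x w =
        ((1 : Matrix (Fin 2) (Fin 2) F) ⊗ₖ c) *ᵥ Helper94.tpv x y - Helper94.tpv x y := by
      rw [Helper94.tpv_kron, Matrix.one_mulVec, hw, ← Helper94.tpvR_apply, map_sub,
        Helper94.tpvR_apply, Helper94.tpvR_apply]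
    rw [h1]
    exact habU _
  have hinj : Function.Injective L := by
    rw [injective_iff_map_eq_zero]
    intro x hx
    rw [hLapply, (map_eq_zero_iff _ hΦ)] at hx
    exact Helper94.tpv_eq_zero_left hw0 hx
  have hrk : Module.finrank F (LinearMap.range L) = 2 := by
    rw [LinearMap.finrank_range_of_inj hinj]; simp
  have heq : LinearMap.range L = U :=
    Submodule.eq_of_le_of_finrank_le hrange (by rw [hrk]; exact hU)
  intro v hv
  rw [← heq] at hv
  obtain ⟨x, rfl⟩ := hv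
  exact ⟨x, hLapply x⟩

/-- **Piece N42 of CALL S5871.** -/
theorem o12p_notOmega_tensor_two [Fintype F] (Q : (ι → F) → F) (hQ : IsNondegenerateQuadraticForm Q)
    (hn : 5 ≤ Fintype.card ι) {n₂ : ℕ} (e : ι ≃ Fin 2 × Fin n₂) (P : GL ι F) :
    ¬ omegaGL Q ≤ tensorProductSubgroup 2 n₂ e P := by
  classical
  intro hle
  have hcard : Fintype.card ι = 2 * n₂ := by
    rw [Fintype.card_congr e]; simp
  have h3 : 3 ≤ n₂ := by omega
  have hΦ := Helper94.tPhi_injective e P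
  obtain ⟨Qb, hQb⟩ : ∃ Qb : QuadraticForm F (ι → F), Qb = Helper98.op_qf Q hQ := ⟨_, rfl⟩
  have hcoe : ⇑Qb = Q := by rw [hQb]; rfl
  have hnd : (QuadraticMap.polarBilin Qb).Nondegenerate := by
    rw [hQb]; exact Helper98.op_qf_nondeg Q hQ
  subst hcoe
  -- a singular vector `u`, a vector `x₁` not orthogonal to it
  obtain ⟨u, -, hu0, huQ⟩ := Helper45.exists_sing_in Qb ⊤
    (by rw [finrank_top, Module.finrank_fintype_fun_eq_card]; omega)
  obtain ⟨x₁, hx₁⟩ : ∃ x₁, QuadraticMap.polar ⇑Qb u x₁ ≠ 0 := by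
    by_contra hcon
    push Not at hcon
    exact hu0 (hnd.1 u (fun y => hcon y))
  -- for `b ⟂ u` outside `⟨u⟩`, both `u` and `b` are pure tensors with the same second factor
  have key : ∀ b : ι → F, QuadraticMap.polar ⇑Qb u b = 0 → (∀ c : F, b ≠ c • u) →
      ∃ w : Fin n₂ → F, w ≠ 0 ∧
        (∃ x : Fin 2 → F, u = Helper94.tPhi e P (Helper94.tpv x w)) ∧
        (∃ x : Fin 2 → F, b = Helper94.tPhi e P (Helper94.tpv x w)) := by
    intro b hub hb
    obtain ⟨g, hg⟩ : ∃ g : ↥(isometryGroup F ⇑Qb), g = Helper94.oE Qb u b := ⟨_, rfl⟩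
    have hgΩ : g ∈ Omega F ⇑Qb := by rw [hg]; exact Helper94.oE_mem_omega Qb hnd (by omega) u b
    have hgGL : (g : GL ι F) ∈ omegaGL ⇑Qb := Subgroup.mem_map_of_mem _ hgΩ
    obtain ⟨a, b', hab⟩ := Helper94.tens_mem_act e P (g : GL ι F) (hle hgGL)
    have hmv : ∀ x, ((g : GL ι F) : Matrix ι ι F) *ᵥ x =
        x + (QuadraticMap.polar ⇑Qb b x - Qb b * QuadraticMap.polar ⇑Qb u x) • u
          - (QuadraticMap.polar ⇑Qb u x) • b := by
      intro x
      rw [hg]
      exact Helper94.mv_oE Qb u b huQ hub x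
    obtain ⟨S, hS⟩ : ∃ S : Finset (ι → F), S = {u, b} := ⟨_, rfl⟩
    obtain ⟨U, hU⟩ : ∃ U : Submodule F (ι → F), U = Submodule.span F (S : Set (ι → F)) :=
      ⟨_, rfl⟩
    have hUrank : Module.finrank F U ≤ 2 := by
      rw [hU]
      exact (finrank_span_finset_le_card S).trans (by rw [hS]; exact Finset.card_le_two)
    have huU : u ∈ U := by rw [hU]; exact Submodule.subset_span (by rw [hS]; simp)
    have hbU : b ∈ U := by rw [hU]; exact Submodule.subset_span (by rw [hS]; simp)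
    have hgU : ∀ x, ((g : GL ι F) : Matrix ι ι F) *ᵥ x - x ∈ U := by
      intro x
      rw [hmv x]
      have : x + (QuadraticMap.polar ⇑Qb b x - Qb b * QuadraticMap.polar ⇑Qb u x) • u
          - (QuadraticMap.polar ⇑Qb u x) • b - x =
          (QuadraticMap.polar ⇑Qb b x - Qb b * QuadraticMap.polar ⇑Qb u x) • u
          - (QuadraticMap.polar ⇑Qb u x) • b := by abel
      rw [this]
      exact U.sub_mem (U.smul_mem _ huU) (U.smul_mem _ hbU)
    have hgx : ((g : GL ι F) : Matrix ι ι F) *ᵥ x₁ ≠ x₁ := by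
      intro h
      rw [hmv x₁] at h
      apply hb ((QuadraticMap.polar ⇑Qb b x₁ - Qb b * QuadraticMap.polar ⇑Qb u x₁) /
        QuadraticMap.polar ⇑Qb u x₁)
      have h1 : (QuadraticMap.polar ⇑Qb u x₁) • b =
          (QuadraticMap.polar ⇑Qb b x₁ - Qb b * QuadraticMap.polar ⇑Qb u x₁) • u := by
        have h2 : x₁ + (QuadraticMap.polar ⇑Qb b x₁ - Qb b * QuadraticMap.polar ⇑Qb u x₁) • u
            - (QuadraticMap.polar ⇑Qb u x₁) • b - x₁ = 0 := by rw [h, sub_self]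
        have h3 : x₁ + (QuadraticMap.polar ⇑Qb b x₁ - Qb b * QuadraticMap.polar ⇑Qb u x₁) • u
            - (QuadraticMap.polar ⇑Qb u x₁) • b - x₁ =
            (QuadraticMap.polar ⇑Qb b x₁ - Qb b * QuadraticMap.polar ⇑Qb u x₁) • u
            - (QuadraticMap.polar ⇑Qb u x₁) • b := by abel
        rw [h3] at h2
        exact (sub_eq_zero.mp h2).symm
      rw [div_eq_inv_mul, ← smul_smul, ← h1, smul_smul, inv_mul_cancel₀ hx₁, one_smul]
    obtain ⟨w, hw0, hw⟩ := o12p_n42_key h3 e P _ a b' hab U hUrank hgU x₁ hgx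
    exact ⟨w, hw0, hw u huU, hw b hbU⟩
  -- one admissible `b₀`
  obtain ⟨b₀, hb₀0, -, hub₀, hxb₀⟩ := Helper45.exists_sing_perp2 Qb (by omega) u x₁
  have hb₀ : ∀ c : F, b₀ ≠ c • u := by
    intro c hc
    rw [hc, QuadraticMap.polar_smul_right, smul_eq_mul, QuadraticMap.polar_comm] at hxb₀
    rcases mul_eq_zero.mp hxb₀ with h | h
    · apply hb₀0
      rw [hc, h, zero_smul]
    · exact hx₁ h
  obtain ⟨w0, hw0, ⟨x0, hx0⟩, -⟩ := key b₀ hub₀ hb₀
  obtain ⟨T, hT⟩ : ∃ T : Submodule F (ι → F),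
      T = LinearMap.range ((Helper94.tPhi e P) ∘ₗ (Helper94.tpvL w0)) := ⟨_, rfl⟩
  have hTmem : ∀ x : Fin 2 → F, Helper94.tPhi e P (Helper94.tpv x w0) ∈ T := by
    intro x
    rw [hT]
    exact ⟨x, by rw [LinearMap.comp_apply, Helper94.tpvL_apply]⟩
  have hTrank : Module.finrank F T ≤ 2 := by
    rw [hT]
    have h1 := LinearMap.finrank_range_le ((Helper94.tPhi e P) ∘ₗ (Helper94.tpvL (n₁ := 2) w0))
    simpa using h1
  have huT : u ∈ T := by rw [hx0]; exact hTmem x0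
  have hperp : LinearMap.ker (QuadraticMap.polarBilin Qb u) ≤ T := by
    intro b hb
    rw [LinearMap.mem_ker, QuadraticMap.polarBilin_apply_apply] at hb
    by_cases hbu : ∃ c : F, b = c • u
    · obtain ⟨c, rfl⟩ := hbu
      exact T.smul_mem c huT
    · push Not at hbu
      obtain ⟨w, hw, ⟨x, hx⟩, ⟨x', hx'⟩⟩ := key b hb hbu
      have h1 : Helper94.tpv x w = Helper94.tpv x0 w0 := hΦ (by rw [← hx, ← hx0])
      have hxne : x ≠ 0 := by
        rintro rfl
        apply hu0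
        rw [hx]
        have : Helper94.tpv (0 : Fin 2 → F) w = 0 := by
          funext p
          simp [Helper94.tpv_apply]
        rw [this, map_zero]
      obtain ⟨i, hi⟩ : ∃ i, x i ≠ 0 := by
        by_contra hcon
        push Not at hcon
        exact hxne (funext hcon)
      have hww : w = (x0 i / x i) • w0 := by
        funext j
        have h2 := congrFun h1 (i, j)
        simp only [Helper94.tpv_apply] at h2
        rw [Pi.smul_apply, smul_eq_mul, div_mul_eq_mul_div, eq_div_iff hi]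
        linear_combination h2
      rw [hx', hww, Helper94.tpv_smul_right, ← Helper94.tpv_smul_left]
      exact hTmem _
  have hker : Fintype.card ι ≤
      Module.finrank F (LinearMap.ker (QuadraticMap.polarBilin Qb u)) + 1 := by
    have h1 := LinearMap.finrank_range_add_finrank_ker (QuadraticMap.polarBilin Qb u)
    rw [Module.finrank_fintype_fun_eq_card] at h1
    have h2 : Module.finrank F (LinearMap.range (QuadraticMap.polarBilin Qb u)) ≤ 1 := by
      have h4 := Submodule.finrank_le (LinearMap.range (QuadraticMap.polarBilin Qb u))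
      simpa using h4
    omega
  have h5 := Submodule.finrank_mono hperp
  omega

end O12pN42

end Cfsg.Agent.Helper28
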