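import Mathlib

set_option autoImplicit false

/-! PIECE U of CALL S5971 (helper69): in characteristic `p` a transvection of `SL_n` (`n ≥ 3`) has
`p`-th power 1, is not scalar and has a fixed space of dimension at least 2. -/

namespace Cfsg.Agent.Helper28

/-- Two basis vectors in the kernel give dimension at least 2. -/
theorem sng_two_le_ker {F : Type*} [Field F] {n : ℕ} (L : (Fin n → F) →ₗ[F] (Fin n → F))
    (i j : Fin n) (hij : i ≠ j) (hi : L (Pi.single i 1) = 0) (hj : L (Pi.single j 1) = 0) :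
    2 ≤ Module.finrank F ↥(LinearMap.ker L) := by
  classical
  have hli : LinearIndependent F ![(Pi.single i 1 : Fin n → F), Pi.single j 1] := by
    rw [LinearIndependent.pair_iff]
    intro s t hst
    have h1 := congrFun hst i
    have h2 := congrFun hst j
    simp [hij, hij.symm] at h1 h2
    exact ⟨h1, h2⟩
  have hle : Submodule.span F (Set.range ![(Pi.single i 1 : Fin n → F), Pi.single j 1]) ≤
      LinearMap.ker L := by
    rw [Submodule.span_le]
    rintro _ ⟨k, rfl⟩
    fin_cases k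
    · exact hi
    · exact hj
  have hfr := finrank_span_eq_card hli
  have h3 := Submodule.finrank_mono hle
  rw [hfr] at h3
  simpa using h3

theorem sng_transvection_pow {F : Type*} [Field F] {n : ℕ} (i j : Fin n) (hij : i ≠ j) (k : ℕ) :
    (Matrix.transvection i j (1 : F)) ^ k = Matrix.transvection i j (k : F) := by
  induction k with
  | zero => simp
  | succ k ih =>
    rw [pow_succ, ih, Matrix.transvection_mul_transvection_same i j hij, Nat.cast_succ]

theorem sng_bad_unip {F : Type*} [Field F] (p : ℕ) [Fact p.Prime] [CharP F p] {n : ℕ} (hn : 3 ≤ n) :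
    ∃ x : Matrix.SpecialLinearGroup (Fin n) F,
      ((x ^ p : Matrix.SpecialLinearGroup (Fin n) F) : Matrix (Fin n) (Fin n) F) = 1 ∧
      (∀ c : F, (x : Matrix (Fin n) (Fin n) F) ≠ c • (1 : Matrix (Fin n) (Fin n) F)) ∧
      2 ≤ Module.finrank F ↥(LinearMap.ker (Matrix.toLin' (x : Matrix (Fin n) (Fin n) F) - 1)) := by
  classical
  obtain ⟨i0, hi0⟩ : ∃ i : Fin n, i = ⟨0, by omega⟩ := ⟨_, rfl⟩
  obtain ⟨i1, hi1⟩ : ∃ i : Fin n, i = ⟨1, by omega⟩ := ⟨_, rfl⟩
  obtain ⟨i2, hi2⟩ : ∃ i : Fin n, i = ⟨2, by omega⟩ := ⟨_, rfl⟩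
  have h01 : i0 ≠ i1 := by simp [hi0, hi1, Fin.ext_iff]
  have h02 : i0 ≠ i2 := by simp [hi0, hi2, Fin.ext_iff]
  have h21 : i2 ≠ i1 := by simp [hi1, hi2, Fin.ext_iff]
  obtain ⟨x, hx⟩ : ∃ x : Matrix.SpecialLinearGroup (Fin n) F,
      (x : Matrix (Fin n) (Fin n) F) = Matrix.transvection i0 i1 (1 : F) :=
    ⟨⟨Matrix.transvection i0 i1 (1 : F), Matrix.det_transvection_of_ne _ _ h01 _⟩, rfl⟩
  refine ⟨x, ?_, ?_, ?_⟩
  · rw [Matrix.SpecialLinearGroup.coe_pow, hx, sng_transvection_pow i0 i1 h01,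
      CharP.cast_eq_zero, Matrix.transvection_zero]
  · intro c hc
    rw [hx] at hc
    have h := congrFun (congrFun hc i0) i1
    simp [Matrix.transvection, Matrix.one_apply, h01] at h
  · rw [hx]
    have key : ∀ k : Fin n, k ≠ i1 →
        (Matrix.toLin' (Matrix.transvection i0 i1 (1 : F)) - 1) (Pi.single k 1) = 0 := by
      intro k hk
      rw [LinearMap.sub_apply, Matrix.toLin'_apply, Matrix.mulVec_single_one, sub_eq_zero]
      funext l
      simp [Matrix.transvection, Matrix.one_apply, Matrix.single_apply, Pi.single_apply, hk,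
        Ne.symm hk]
    exact sng_two_le_ker _ i0 i2 h02 (key i0 h01) (key i2 h21)

end Cfsg.Agent.Helper28
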