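import Mathlib
import Cfsg.Agent.Helper28.Sng3U

set_option autoImplicit false

/-! PIECE D9 of CALL S5971 (helper69): if `9 ∣ q - 1` then `diag(t⁻¹, t⁻¹, t²)` (`t` of order 9)
is an element of `SL_3(q)` with scalar cube, not scalar, with an eigenspace of dimension 2. -/

namespace Cfsg.Agent.Helper28

theorem sng_bad_nine {F : Type*} [Field F] [Fintype F] (h9 : 9 ∣ Fintype.card F - 1) :
    ∃ (x : Matrix.SpecialLinearGroup (Fin 3) F) (c z : F),
      ((x ^ 3 : Matrix.SpecialLinearGroup (Fin 3) F) : Matrix (Fin 3) (Fin 3) F) = z • (1 : Matrix (Fin 3) (Fin 3) F) ∧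
      (∀ a : F, (x : Matrix (Fin 3) (Fin 3) F) ≠ a • (1 : Matrix (Fin 3) (Fin 3) F)) ∧
      2 ≤ Module.finrank F ↥(LinearMap.ker (Matrix.toLin' (x : Matrix (Fin 3) (Fin 3) F) - c • 1)) := by
  classical
  -- an element of order 9
  obtain ⟨g, hg⟩ := IsCyclic.exists_ofOrder_eq_natCard (α := Fˣ)
  rw [Nat.card_eq_fintype_card, Fintype.card_units] at hg
  have hq1 : 0 < Fintype.card F - 1 := by
    have := Fintype.one_lt_card (α := F)
    omega
  obtain ⟨m, hm⟩ := h9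
  have hm0 : m ≠ 0 := by
    rintro rfl
    omega
  obtain ⟨u, hu⟩ : ∃ u : Fˣ, orderOf u = 9 := by
    refine ⟨g ^ m, ?_⟩
    rw [orderOf_pow_of_dvd hm0 (by rw [hg, hm]; exact Dvd.intro_left 9 rfl), hg, hm]
    exact Nat.mul_div_cancel _ (Nat.pos_of_ne_zero hm0)
  obtain ⟨t, ht⟩ : ∃ t : F, t = (u : F) := ⟨_, rfl⟩
  have ht0 : t ≠ 0 := by rw [ht]; exact u.ne_zero
  have ht9 : t ^ 9 = 1 := by
    rw [ht, ← Units.val_pow_eq_pow_val, ← hu, pow_orderOf_eq_one, Units.val_one]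
  have ht3 : t ^ 3 ≠ 1 := by
    intro h
    have h1 : u ^ 3 = 1 := by
      apply Units.ext
      rw [Units.val_pow_eq_pow_val, ← ht, h, Units.val_one]
    have h2 := orderOf_dvd_of_pow_eq_one h1
    rw [hu] at h2
    omega
  have hdet : (Matrix.diagonal ![t⁻¹, t⁻¹, t ^ 2]).det = 1 := by
    rw [Matrix.det_diagonal, Fin.prod_univ_three]
    simp only [Matrix.cons_val_zero, Matrix.cons_val_one, Matrix.cons_val_two, Matrix.head_cons,
      Matrix.tail_cons]
    field_simp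
  obtain ⟨x, hx⟩ : ∃ x : Matrix.SpecialLinearGroup (Fin 3) F,
      (x : Matrix (Fin 3) (Fin 3) F) = Matrix.diagonal ![t⁻¹, t⁻¹, t ^ 2] := ⟨⟨_, hdet⟩, rfl⟩
  refine ⟨x, t⁻¹, t⁻¹ ^ 3, ?_, ?_, ?_⟩
  · rw [Matrix.SpecialLinearGroup.coe_pow, hx, Matrix.diagonal_pow]
    have h6 : (t ^ 2) ^ 3 = t⁻¹ ^ 3 := by
      field_simp
      linear_combination ht9
    ext i j
    fin_cases i <;> fin_cases j <;> simp [Matrix.diagonal_apply, Matrix.one_apply, h6]
  · intro a ha
    rw [hx] at ha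
    have h0 := congrFun (congrFun ha 0) 0
    have h2 := congrFun (congrFun ha 2) 2
    simp [Matrix.diagonal_apply, Matrix.one_apply] at h0 h2
    apply ht3
    have h3 : t ^ 2 = t⁻¹ := by rw [h2, h0]
    field_simp at h3
    linear_combination h3
  · rw [hx]
    have key : ∀ k : Fin 3, k ≠ 2 →
        (Matrix.toLin' (Matrix.diagonal ![t⁻¹, t⁻¹, t ^ 2]) - t⁻¹ • 1) (Pi.single k 1) = 0 := by
      intro k hk
      rw [LinearMap.sub_apply, Matrix.toLin'_apply, Matrix.mulVec_single_one, sub_eq_zero]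
      funext l
      fin_cases k <;> fin_cases l <;>
        simp [Matrix.diagonal_apply, Pi.single_apply] at hk ⊢
    exact sng_two_le_ker _ 0 1 (by decide) (key 0 (by decide)) (key 1 (by decide))

end Cfsg.Agent.Helper28
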