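import Mathlib
import Cfsg.Agent.Helper96.Sp4Q3
import Cfsg.Agent.Helper94.SpLag2
import Cfsg.Agent.Helper96.SpAux
import Cfsg.Agent.Helper96.SpF3

set_option autoImplicit false

/-! PIECE TS of CALL S5787 (helper96): over the field with three elements the stabiliser in
`Sp_4` of a pair of complementary totally isotropic planes stabilises a non-degenerate
decomposition into two planes. -/

namespace Cfsg.Agent.Helper28

open Cfsg Cfsg.Geo Matrix Cfsg.Agent.Helper96.Q3

section Sp4Q3TS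

variable {F : Type*} [Field F]

/-- Two independent vectors of a plane span it. -/
theorem ts_span_two (S : Submodule F (Fin 2 ⊕ Fin 2 → F)) (hS : Module.finrank F S = 2)
    (x₁ x₂ : Fin 2 ⊕ Fin 2 → F) (h1 : x₁ ∈ S) (h2 : x₂ ∈ S) (h10 : x₁ ≠ 0)
    (h21 : x₂ ∉ Submodule.span F {x₁}) : ∀ x ∈ S, ∃ c d : F, x = c • x₁ + d • x₂ := by
  classical
  have hli : LinearIndependent F ![x₁, x₂] := by
    rw [LinearIndependent.pair_iff]
    intro s t hst
    have ht : t = 0 := by
      by_contra ht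
      apply h21
      rw [Submodule.mem_span_singleton]
      refine ⟨-(t⁻¹ * s), ?_⟩
      have h3 : t • x₂ = -(s • x₁) := eq_neg_of_add_eq_zero_right hst
      calc (-(t⁻¹ * s)) • x₁ = t⁻¹ • (-(s • x₁)) := by rw [neg_smul, mul_smul, smul_neg]
        _ = t⁻¹ • (t • x₂) := by rw [h3]
        _ = x₂ := by rw [smul_smul, inv_mul_cancel₀ ht, one_smul]
    subst ht
    rw [zero_smul, add_zero] at hst
    exact ⟨(smul_eq_zero.mp hst).resolve_right h10, rfl⟩
  have hle : Submodule.span F (Set.range ![x₁, x₂]) ≤ S := by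
    rw [Submodule.span_le]
    rintro _ ⟨i, rfl⟩
    fin_cases i
    · exact h1
    · exact h2
  have hfr : Module.finrank F (Submodule.span F (Set.range ![x₁, x₂])) = 2 := by
    rw [finrank_span_eq_card hli]; simp
  have heq := Submodule.eq_of_le_of_finrank_eq hle (by rw [hfr, hS])
  intro x hx
  rw [← heq, Matrix.range_cons_cons_empty, Submodule.mem_span_pair] at hx
  obtain ⟨c, d, rfl⟩ := hx
  exact ⟨c, d, rfl⟩

/-- A plane spanned by two vectors with non-zero product is non-degenerate. -/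
theorem ts_nondeg_plane (p q : Fin 2 ⊕ Fin 2 → F) (h : sympForm 2 F p q ≠ 0) :
    IsNondegenerateOn (sympForm 2 F) (Submodule.span F {p, q}) := by
  have key : ∀ w ∈ Submodule.span F {p, q}, w ≠ 0 →
      ∃ x ∈ Submodule.span F {p, q}, sympForm 2 F w x ≠ 0 := by
    intro w hw hw0
    obtain ⟨c, d, rfl⟩ := Submodule.mem_span_pair.mp hw
    by_cases hc : c = 0
    · subst hc
      have hd : d ≠ 0 := by
        rintro rfl
        apply hw0
        rw [zero_smul, zero_smul, add_zero]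
      refine ⟨p, Submodule.subset_span (Set.mem_insert _ _), ?_⟩
      rw [Helper94.sf_add_left, Helper94.sf_smul_left, Helper94.sf_smul_left, Helper94.sf_self,
        Helper94.sf_swap q p, mul_zero, zero_add]
      exact mul_ne_zero hd (neg_ne_zero.mpr h)
    · refine ⟨q, Submodule.subset_span (Set.mem_insert_of_mem _ rfl), ?_⟩
      rw [Helper94.sf_add_left, Helper94.sf_smul_left, Helper94.sf_smul_left, Helper94.sf_self,
        mul_zero, add_zero]
      exact mul_ne_zero hc h
  intro w hw hw0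
  obtain ⟨x, hx, hxw⟩ := key w hw hw0
  refine ⟨⟨x, hx, ?_⟩, ⟨x, hx, hxw⟩⟩
  rw [Helper94.sf_swap]
  exact neg_ne_zero.mpr hxw

/-- Two planes are orthogonal as soon as their generators are. -/
theorem ts_orth_planes (p q p' q' : Fin 2 ⊕ Fin 2 → F)
    (h1 : sympForm 2 F p p' = 0) (h2 : sympForm 2 F p q' = 0) (h3 : sympForm 2 F q p' = 0)
    (h4 : sympForm 2 F q q' = 0) :
    AreOrthogonalFor (sympForm 2 F) (Submodule.span F {p, q}) (Submodule.span F {p', q'}) := by
  intro u hu v hv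
  obtain ⟨c, d, rfl⟩ := Submodule.mem_span_pair.mp hu
  obtain ⟨c', d', rfl⟩ := Submodule.mem_span_pair.mp hv
  simp only [Helper94.sf_add_left, Helper94.sf_add_right, Helper94.sf_smul_left,
    Helper94.sf_smul_right, h1, h2, h3, h4]
  ring

/-- A matrix maps a plane into a subspace as soon as it does so for the generators. -/
theorem ts_maps_plane (g : Matrix (Fin 2 ⊕ Fin 2) (Fin 2 ⊕ Fin 2) F) (p q : Fin 2 ⊕ Fin 2 → F)
    (W : Submodule F (Fin 2 ⊕ Fin 2 → F)) (hp : g *ᵥ p ∈ W) (hq : g *ᵥ q ∈ W) :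
    ∀ x ∈ Submodule.span F {p, q}, g *ᵥ x ∈ W := by
  intro x hx
  obtain ⟨c, d, rfl⟩ := Submodule.mem_span_pair.mp hx
  rw [Matrix.mulVec_add, Matrix.mulVec_smul, Matrix.mulVec_smul]
  exact W.add_mem (W.smul_mem _ hp) (W.smul_mem _ hq)

theorem ts_finrank_pair_le (p q : Fin 2 ⊕ Fin 2 → F) :
    Module.finrank F (Submodule.span F ({p, q} : Set (Fin 2 ⊕ Fin 2 → F))) ≤ 2 := by
  classical
  rw [← Finset.coe_pair]
  exact (finrank_span_finset_le_card _).trans Finset.card_le_two

/-- **Piece TS of CALL S5787.** -/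
theorem sp4q3_ts_pair [Fintype F] (hF : Fintype.card F = 3)
    (D : Fin 2 → Submodule F (Fin 2 ⊕ Fin 2 → F)) (hD : IsMDecomposition 2 D)
    (hts : ∀ i, IsTotallySingularFor (sympForm 2 F) (D i)) :
    ∃ D' : Fin 2 → Submodule F (Fin 2 ⊕ Fin 2 → F),
      IsNondegenerateMDecomposition (sympForm 2 F) 2 D' ∧
      decompositionStabilizer D ⊓ spGL 2 F ≤ decompositionStabilizer D' := by
  classical
  have h3 : (3 : F) = 0 := Helper96.Sy.f3_three hF
  have h2 : (2 : F) ≠ 0 := Helper96.Sy.f3_two_ne hF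
  have hp : Helper94.LagPair (D 0) (D 1) := by
    refine ⟨hts 0, hts 1, ?_, ?_⟩
    · have hdisj : Disjoint (D 0) (D 1) := hD.indep.pairwiseDisjoint (by decide)
      exact fun x hx hx' => Submodule.disjoint_def.mp hdisj x hx hx'
    · have htop : D 0 ⊔ D 1 = ⊤ := by
        rw [eq_top_iff, ← hD.iSup_eq_top]
        refine iSup_le (fun i => ?_)
        fin_cases i
        · exact le_sup_left
        · exact le_sup_right
      intro v
      have hv : v ∈ D 0 ⊔ D 1 := by rw [htop]; exact Submodule.mem_top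
      obtain ⟨a, ha, b, hb, hab⟩ := Submodule.mem_sup.mp hv
      exact ⟨a, ha, b, hb, hab.symm⟩
  have hA2 : Module.finrank F (D 0) = 2 := hD.finrank_eq 0
  have hB2 : Module.finrank F (D 1) = 2 := hD.finrank_eq 1
  -- a basis `a₁, a₂` of `D 0` and the dual basis `b₁, b₂` of `D 1`
  obtain ⟨a₁, ha₁, a₂, ha₂, ha₁0, ha₂n⟩ := Helper94.exists_two_indep (D 0) (by rw [hA2])
  have ha₁n : a₁ ∉ Submodule.span F {a₂} := by
    intro h
    obtain ⟨c, hc⟩ := Submodule.mem_span_singleton.mp h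
    have hc0 : c ≠ 0 := by
      rintro rfl
      apply ha₁0
      rw [← hc, zero_smul]
    apply ha₂n
    rw [Submodule.mem_span_singleton]
    exact ⟨c⁻¹, by rw [← hc, smul_smul, inv_mul_cancel₀ hc0, one_smul]⟩
  obtain ⟨b₁, hb₁, h11, h21⟩ := hp.sep a₁ a₂ ha₁ ha₂ ha₁n
  obtain ⟨b₂, hb₂, h22, h12⟩ := hp.sep a₂ a₁ ha₂ ha₁ ha₂n
  have hb₁0 : b₁ ≠ 0 := by
    rintro rfl
    rw [Helper94.sf_zero_right] at h11
    exact zero_ne_one h11
  have hb₂n : b₂ ∉ Submodule.span F {b₁} := by
    intro h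
    obtain ⟨c, rfl⟩ := Submodule.mem_span_singleton.mp h
    rw [Helper94.sf_smul_right, h21, mul_zero] at h22
    exact zero_ne_one h22
  have spanA := ts_span_two (D 0) hA2 a₁ a₂ ha₁ ha₂ ha₁0 ha₂n
  have spanB := ts_span_two (D 1) hB2 b₁ b₂ hb₁ hb₂ hb₁0 hb₂n
  -- the table of form values
  have haa12 : sympForm 2 F a₁ a₂ = 0 := hp.isoA a₁ ha₁ a₂ ha₂
  have haa21 : sympForm 2 F a₂ a₁ = 0 := hp.isoA a₂ ha₂ a₁ ha₁
  have hbb12 : sympForm 2 F b₁ b₂ = 0 := hp.isoB b₁ hb₁ b₂ hb₂
  have hbb21 : sympForm 2 F b₂ b₁ = 0 := hp.isoB b₂ hb₂ b₁ hb₁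
  have h11' : sympForm 2 F b₁ a₁ = -1 := by rw [Helper94.sf_swap, h11]
  have h21' : sympForm 2 F b₁ a₂ = 0 := by rw [Helper94.sf_swap, h21, neg_zero]
  have h22' : sympForm 2 F b₂ a₂ = -1 := by rw [Helper94.sf_swap, h22]
  have h12' : sympForm 2 F b₂ a₁ = 0 := by rw [Helper94.sf_swap, h12, neg_zero]
  -- the planes `W l = ⟨a₁ + l b₂, a₂ - l b₁⟩`
  obtain ⟨W, hW⟩ : ∃ W : F → Submodule F (Fin 2 ⊕ Fin 2 → F),
      ∀ l, W l = Submodule.span F {a₁ + l • b₂, a₂ - l • b₁} := ⟨fun l => _, fun l => rfl⟩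
  have hPW : ∀ l, a₁ + l • b₂ ∈ W l := fun l => by
    rw [hW]; exact Submodule.subset_span (Set.mem_insert _ _)
  have hQW : ∀ l, a₂ - l • b₁ ∈ W l := fun l => by
    rw [hW]; exact Submodule.subset_span (Set.mem_insert_of_mem _ rfl)
  have hPQ : ∀ l : F, sympForm 2 F (a₁ + l • b₂) (a₂ - l • b₁) = -2 * l := by
    intro l
    simp only [Helper94.sf_add_left, Helper94.sf_sub_right, Helper94.sf_smul_left,
      Helper94.sf_smul_right, haa12, hbb21, h11, h22']
    ring
  have hnd1 : IsNondegenerateOn (sympForm 2 F) (W 1) := by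
    rw [hW]
    apply ts_nondeg_plane
    rw [hPQ, mul_one]
    exact neg_ne_zero.mpr h2
  have hnd2 : IsNondegenerateOn (sympForm 2 F) (W (-1)) := by
    rw [hW]
    apply ts_nondeg_plane
    rw [hPQ]
    have : (-2 : F) * -1 = 2 := by ring
    rw [this]
    exact h2
  have horth : AreOrthogonalFor (sympForm 2 F) (W 1) (W (-1)) := by
    rw [hW, hW]
    apply ts_orth_planes
    · simp only [Helper94.sf_add_left, Helper94.sf_add_right, Helper94.sf_smul_left,
        Helper94.sf_smul_right, Helper94.sf_self, h12, h12']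
      ring
    · simp only [Helper94.sf_add_left, Helper94.sf_sub_right, Helper94.sf_smul_left,
        Helper94.sf_smul_right, haa12, hbb21, h11, h22']
      ring
    · simp only [Helper94.sf_sub_left, Helper94.sf_add_right, Helper94.sf_smul_left,
        Helper94.sf_smul_right, haa21, hbb12, h11', h22]
      ring
    · simp only [Helper94.sf_sub_left, Helper94.sf_sub_right, Helper94.sf_smul_left,
        Helper94.sf_smul_right, Helper94.sf_self, h21, h21']
      ring
  have horth' : AreOrthogonalFor (sympForm 2 F) (W (-1)) (W 1) := by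
    intro u hu v hv
    rw [Helper94.sf_swap, horth v hv u hu, neg_zero]
  -- the two planes span everything
  have hsup : W 1 ⊔ W (-1) = ⊤ := by
    have hP1 : a₁ + (1 : F) • b₂ ∈ W 1 ⊔ W (-1) := Submodule.mem_sup_left (hPW 1)
    have hP2 : a₁ + (-1 : F) • b₂ ∈ W 1 ⊔ W (-1) := Submodule.mem_sup_right (hPW (-1))
    have hQ1 : a₂ - (1 : F) • b₁ ∈ W 1 ⊔ W (-1) := Submodule.mem_sup_left (hQW 1)
    have hQ2 : a₂ - (-1 : F) • b₁ ∈ W 1 ⊔ W (-1) := Submodule.mem_sup_right (hQW (-1))
    have e1 : a₁ = -(a₁ + (1 : F) • b₂) - (a₁ + (-1 : F) • b₂) := by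
      have e : a₁ = -(a₁ + (1 : F) • b₂) - (a₁ + (-1 : F) • b₂) + (3 : F) • a₁ := by module
      rw [h3, zero_smul, add_zero] at e
      exact e
    have e2 : b₂ = (a₁ + (-1 : F) • b₂) - (a₁ + (1 : F) • b₂) := by
      have e : b₂ = (a₁ + (-1 : F) • b₂) - (a₁ + (1 : F) • b₂) + (3 : F) • b₂ := by module
      rw [h3, zero_smul, add_zero] at e
      exact e
    have e3 : a₂ = -(a₂ - (1 : F) • b₁) - (a₂ - (-1 : F) • b₁) := by
      have e : a₂ = -(a₂ - (1 : F) • b₁) - (a₂ - (-1 : F) • b₁) + (3 : F) • a₂ := by module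
      rw [h3, zero_smul, add_zero] at e
      exact e
    have e4 : b₁ = (a₂ - (1 : F) • b₁) - (a₂ - (-1 : F) • b₁) := by
      have e : b₁ = (a₂ - (1 : F) • b₁) - (a₂ - (-1 : F) • b₁) + (3 : F) • b₁ := by module
      rw [h3, zero_smul, add_zero] at e
      exact e
    have ma₁ : a₁ ∈ W 1 ⊔ W (-1) := by
      rw [e1]; exact Submodule.sub_mem _ (Submodule.neg_mem _ hP1) hP2
    have mb₂ : b₂ ∈ W 1 ⊔ W (-1) := by
      rw [e2]; exact Submodule.sub_mem _ hP2 hP1
    have ma₂ : a₂ ∈ W 1 ⊔ W (-1) := by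
      rw [e3]; exact Submodule.sub_mem _ (Submodule.neg_mem _ hQ1) hQ2
    have mb₁ : b₁ ∈ W 1 ⊔ W (-1) := by
      rw [e4]; exact Submodule.sub_mem _ hQ1 hQ2
    rw [Submodule.eq_top_iff']
    intro v
    obtain ⟨a, ha, b, hb, rfl⟩ := hp.dec v
    obtain ⟨c, d, rfl⟩ := spanA a ha
    obtain ⟨c', d', rfl⟩ := spanB b hb
    exact Submodule.add_mem _
      (Submodule.add_mem _ (Submodule.smul_mem _ _ ma₁) (Submodule.smul_mem _ _ ma₂))
      (Submodule.add_mem _ (Submodule.smul_mem _ _ mb₁) (Submodule.smul_mem _ _ mb₂))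
  have hr1le : Module.finrank F (W 1) ≤ 2 := by rw [hW]; exact ts_finrank_pair_le _ _
  have hr2le : Module.finrank F (W (-1)) ≤ 2 := by rw [hW]; exact ts_finrank_pair_le _ _
  have hdim := Submodule.finrank_sup_add_finrank_inf_eq (W 1) (W (-1))
  rw [hsup, finrank_top, Module.finrank_fintype_fun_eq_card, Fintype.card_sum, Fintype.card_fin]
    at hdim
  have hr1 : Module.finrank F (W 1) = 2 := by omega
  have hr2 : Module.finrank F (W (-1)) = 2 := by omega
  have hinf : W 1 ⊓ W (-1) = ⊥ := by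
    apply Submodule.finrank_eq_zero.mp
    omega
  refine ⟨Helper96.Sy.pairD (W 1) (W (-1)),
    ⟨Helper96.Sy.pair_decomp (W 1) (W (-1)) hinf hsup 2 hr1 hr2 (by norm_num), ?_, ?_⟩, ?_⟩
  · intro i
    rcases Helper96.Sy.fin2_cases i with rfl | rfl
    · exact hnd1
    · exact hnd2
  · intro i j hij
    rcases Helper96.Sy.fin2_cases i with rfl | rfl <;> rcases Helper96.Sy.fin2_cases j with rfl | rfl
    · exact absurd rfl hij
    · exact horth
    · exact horth'
    · exact absurd rfl hij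
  -- the stabiliser
  intro g hg
  obtain ⟨hgD, hgS⟩ := Subgroup.mem_inf.mp hg
  have key : ∃ μ : F, (μ = 1 ∨ μ = -1) ∧ ∀ l : F, l * l = 1 →
      ∀ x ∈ W l, (g : Matrix (Fin 2 ⊕ Fin 2) (Fin 2 ⊕ Fin 2) F) *ᵥ x ∈ W (l * μ) := by
    rcases Helper94.stab2_cases D g hgD with ⟨h0, h1⟩ | ⟨h0, h1⟩
    · -- `g` fixes both planes
      obtain ⟨α, γ, hga₁⟩ := spanA _ (h0 a₁ ha₁)
      obtain ⟨β, δ, hga₂⟩ := spanA _ (h0 a₂ ha₂)
      obtain ⟨x₁, x₂, hgb₁⟩ := spanB _ (h1 b₁ hb₁)
      obtain ⟨y₁, y₂, hgb₂⟩ := spanB _ (h1 b₂ hb₂)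
      have e11 : α * x₁ + γ * x₂ = 1 := by
        have h := Helper94.sp_apply hgS a₁ b₁
        rw [hga₁, hgb₁, h11] at h
        simp only [Helper94.sf_add_left, Helper94.sf_add_right, Helper94.sf_smul_left,
          Helper94.sf_smul_right, h11, h12, h21, h22] at h
        linear_combination h
      have e21 : β * x₁ + δ * x₂ = 0 := by
        have h := Helper94.sp_apply hgS a₂ b₁
        rw [hga₂, hgb₁, h21] at h
        simp only [Helper94.sf_add_left, Helper94.sf_add_right, Helper94.sf_smul_left,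
          Helper94.sf_smul_right, h11, h12, h21, h22] at h
        linear_combination h
      have e12 : α * y₁ + γ * y₂ = 0 := by
        have h := Helper94.sp_apply hgS a₁ b₂
        rw [hga₁, hgb₂, h12] at h
        simp only [Helper94.sf_add_left, Helper94.sf_add_right, Helper94.sf_smul_left,
          Helper94.sf_smul_right, h11, h12, h21, h22] at h
        linear_combination h
      have e22 : β * y₁ + δ * y₂ = 1 := by
        have h := Helper94.sp_apply hgS a₂ b₂
        rw [hga₂, hgb₂, h22] at h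
        simp only [Helper94.sf_add_left, Helper94.sf_add_right, Helper94.sf_smul_left,
          Helper94.sf_smul_right, h11, h12, h21, h22] at h
        linear_combination h
      obtain ⟨μ, hμ⟩ : ∃ μ : F, α * δ - β * γ = μ := ⟨_, rfl⟩
      have hΔ : μ * (x₁ * y₂ - x₂ * y₁) = 1 := by
        rw [← hμ]
        linear_combination (β * y₁ + δ * y₂) * e11 + e22 - (β * x₁ + δ * x₂) * e12
      have hμ0 : μ ≠ 0 := by
        rintro rfl
        rw [zero_mul] at hΔ
        exact zero_ne_one hΔ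
      have hμ1 : μ = 1 ∨ μ = -1 := by
        rcases Helper96.Sy.f3_cases hF μ with h | h | h
        · exact absurd h hμ0
        · exact Or.inl h
        · exact Or.inr h
      have hμμ : μ * μ = 1 := by
        rcases hμ1 with h | h <;> rw [h] <;> ring
      have hy₁ : y₁ = -γ * μ := by
        linear_combination μ * (δ * e12 - γ * e22 - y₁ * hμ) - y₁ * hμμ
      have hy₂ : y₂ = α * μ := by
        linear_combination μ * (α * e22 - β * e12 - y₂ * hμ) - y₂ * hμμ
      have hx₁ : x₁ = δ * μ := by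
        linear_combination μ * (δ * e11 - γ * e21 - x₁ * hμ) - x₁ * hμμ
      have hx₂ : x₂ = -β * μ := by
        linear_combination μ * (α * e21 - β * e11 - x₂ * hμ) - x₂ * hμμ
      refine ⟨μ, hμ1, fun l _ => ?_⟩
      rw [hW l]
      apply ts_maps_plane
      · have e : (g : Matrix (Fin 2 ⊕ Fin 2) (Fin 2 ⊕ Fin 2) F) *ᵥ (a₁ + l • b₂) =
            α • (a₁ + (l * μ) • b₂) + γ • (a₂ - (l * μ) • b₁) := by
          rw [Matrix.mulVec_add, Matrix.mulVec_smul, hga₁, hgb₂, hy₁, hy₂]
          module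
        rw [e]
        exact (W _).add_mem ((W _).smul_mem _ (hPW _)) ((W _).smul_mem _ (hQW _))
      · have e : (g : Matrix (Fin 2 ⊕ Fin 2) (Fin 2 ⊕ Fin 2) F) *ᵥ (a₂ - l • b₁) =
            β • (a₁ + (l * μ) • b₂) + δ • (a₂ - (l * μ) • b₁) := by
          rw [Matrix.mulVec_sub, Matrix.mulVec_smul, hga₂, hgb₁, hx₁, hx₂]
          module
        rw [e]
        exact (W _).add_mem ((W _).smul_mem _ (hPW _)) ((W _).smul_mem _ (hQW _))
    · -- `g` interchanges the two planes
      obtain ⟨α, γ, hga₁⟩ := spanB _ (h0 a₁ ha₁)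
      obtain ⟨β, δ, hga₂⟩ := spanB _ (h0 a₂ ha₂)
      obtain ⟨x₁, x₂, hgb₁⟩ := spanA _ (h1 b₁ hb₁)
      obtain ⟨y₁, y₂, hgb₂⟩ := spanA _ (h1 b₂ hb₂)
      have e11 : α * x₁ + γ * x₂ = -1 := by
        have h := Helper94.sp_apply hgS a₁ b₁
        rw [hga₁, hgb₁, h11] at h
        simp only [Helper94.sf_add_left, Helper94.sf_add_right, Helper94.sf_smul_left,
          Helper94.sf_smul_right, h11', h12', h21', h22'] at h
        linear_combination -h
      have e21 : β * x₁ + δ * x₂ = 0 := by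
        have h := Helper94.sp_apply hgS a₂ b₁
        rw [hga₂, hgb₁, h21] at h
        simp only [Helper94.sf_add_left, Helper94.sf_add_right, Helper94.sf_smul_left,
          Helper94.sf_smul_right, h11', h12', h21', h22'] at h
        linear_combination -h
      have e12 : α * y₁ + γ * y₂ = 0 := by
        have h := Helper94.sp_apply hgS a₁ b₂
        rw [hga₁, hgb₂, h12] at h
        simp only [Helper94.sf_add_left, Helper94.sf_add_right, Helper94.sf_smul_left,
          Helper94.sf_smul_right, h11', h12', h21', h22'] at h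
        linear_combination -h
      have e22 : β * y₁ + δ * y₂ = -1 := by
        have h := Helper94.sp_apply hgS a₂ b₂
        rw [hga₂, hgb₂, h22] at h
        simp only [Helper94.sf_add_left, Helper94.sf_add_right, Helper94.sf_smul_left,
          Helper94.sf_smul_right, h11', h12', h21', h22'] at h
        linear_combination -h
      obtain ⟨μ, hμ⟩ : ∃ μ : F, α * δ - β * γ = μ := ⟨_, rfl⟩
      have hΔ : μ * (x₁ * y₂ - x₂ * y₁) = 1 := by
        rw [← hμ]
        linear_combination (β * y₁ + δ * y₂) * e11 - e22 - (β * x₁ + δ * x₂) * e12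
      have hμ0 : μ ≠ 0 := by
        rintro rfl
        rw [zero_mul] at hΔ
        exact zero_ne_one hΔ
      have hμ1 : μ = 1 ∨ μ = -1 := by
        rcases Helper96.Sy.f3_cases hF μ with h | h | h
        · exact absurd h hμ0
        · exact Or.inl h
        · exact Or.inr h
      have hμμ : μ * μ = 1 := by
        rcases hμ1 with h | h <;> rw [h] <;> ring
      have hy₁ : y₁ = γ * μ := by
        linear_combination μ * (δ * e12 - γ * e22 - y₁ * hμ) - y₁ * hμμ
      have hy₂ : y₂ = -α * μ := by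
        linear_combination μ * (α * e22 - β * e12 - y₂ * hμ) - y₂ * hμμ
      have hx₁ : x₁ = -δ * μ := by
        linear_combination μ * (δ * e11 - γ * e21 - x₁ * hμ) - x₁ * hμμ
      have hx₂ : x₂ = β * μ := by
        linear_combination μ * (α * e21 - β * e11 - x₂ * hμ) - x₂ * hμμ
      refine ⟨μ, hμ1, fun l hl => ?_⟩
      rw [hW l]
      apply ts_maps_plane
      · have e : α • b₁ + γ • b₂ + l • ((γ * μ) • a₁ + (-α * μ) • a₂) =
            (l * γ * μ) • (a₁ + (l * μ) • b₂) + (-(l * α * μ)) • (a₂ - (l * μ) • b₁)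
              + (γ * (1 - (l * l) * (μ * μ))) • b₂ + (α * (1 - (l * l) * (μ * μ))) • b₁ := by
          module
        rw [hl, hμμ, mul_one, sub_self, mul_zero, mul_zero, zero_smul, zero_smul, add_zero,
          add_zero] at e
        rw [Matrix.mulVec_add, Matrix.mulVec_smul, hga₁, hgb₂, hy₁, hy₂, e]
        exact (W _).add_mem ((W _).smul_mem _ (hPW _)) ((W _).smul_mem _ (hQW _))
      · have e : β • b₁ + δ • b₂ - l • ((-δ * μ) • a₁ + (β * μ) • a₂) =
            (l * δ * μ) • (a₁ + (l * μ) • b₂) + (-(l * β * μ)) • (a₂ - (l * μ) • b₁)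
              + (δ * (1 - (l * l) * (μ * μ))) • b₂ + (β * (1 - (l * l) * (μ * μ))) • b₁ := by
          module
        rw [hl, hμμ, mul_one, sub_self, mul_zero, mul_zero, zero_smul, zero_smul, add_zero,
          add_zero] at e
        rw [Matrix.mulVec_sub, Matrix.mulVec_smul, hga₂, hgb₁, hx₁, hx₂, e]
        exact (W _).add_mem ((W _).smul_mem _ (hPW _)) ((W _).smul_mem _ (hQW _))
  obtain ⟨μ, hμ, hmap⟩ := key
  have em : (-1 : F) * (-1) = 1 := by ring
  rcases hμ with rfl | rfl
  · refine Helper96.Sy.pair_stab_fix (W 1) (W (-1)) 2 hr1 hr2 g ?_ ?_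
    · have h := hmap 1 (by ring)
      rwa [mul_one] at h
    · have h := hmap (-1) em
      rwa [mul_one] at h
  · refine Helper96.Sy.pair_stab_swap (W 1) (W (-1)) 2 hr1 hr2 g ?_ ?_
    · have h := hmap 1 (by ring)
      rwa [one_mul] at h
    · have h := hmap (-1) em
      rwa [em] at h

end Sp4Q3TS

end Cfsg.Agent.Helper28
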